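import Cfsg.Agent.H7.FA.Fr

/-! The generic case in `SL_4`: the axioms of the commutator pairing. -/

set_option autoImplicit false
set_option linter.unusedSectionVars false
set_option linter.unusedVariables false
set_option linter.unusedSimpArgs false

namespace Cfsg.Agent.H7.FA

open Module Cfsg.Agent.H6.L4 Cfsg.Agent.H8.M3 Cfsg.Agent.LD.F4 Cfsg.Agent.H2.LF
open Cfsg.Agent.H6.S4 (nc um ui iu u_inj u_ne)

universe u

theorem cyc_of {X : Type*} [Group X] [Finite X] (cm : ∀ a b : X, a * b = b * a) {t : X}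
    (h2 : ∀ x : X, x * x = 1 → x = 1 ∨ x = t)
    (ho : ∀ n, Odd n → Set.ncard {x : X | x ^ n = 1} ≤ n) : IsCyclic X := by
  classical
  have := Fintype.ofFinite X
  have key : ∀ n, 0 < n → Set.ncard {x : X | x ^ n = 1} ≤ n := fun n => by
    induction n using Nat.strong_induction_on with | _ n ih => ?_
    intro n0
    rcases Nat.even_or_odd' n with ⟨m, rfl | rfl⟩
    · have h := ih m (by omega) (by omega)
      rw [Set.ncard_eq_toFinset_card'] at h ⊢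
      refine le_trans (Finset.card_le_mul_card_image_of_maps_to (f := fun x => x * x) (t :=
        {x : X | x ^ m = 1}.toFinset) (fun x hx => by simpa [← sq, ← pow_mul] using hx) 2
        fun b _ => ?_) (by omega)
      rcases (Finset.filter (fun x => x * x = b) {x : X | x ^ (2 * m) = 1}.toFinset).eq_empty_or_nonempty
        with e | ⟨a, ha⟩
      · rw [e]; simp
      refine le_trans (Finset.card_le_card (t := {a, t * a}) fun x hx => ?_) Finset.card_le_two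
      rw [Finset.mem_filter] at ha hx
      have := h2 (x * a⁻¹) (by
        rw [mul_assoc, ← mul_assoc a⁻¹, cm a⁻¹, mul_assoc, ← mul_assoc, hx.2, ← ha.2]; group)
      simpa [mul_inv_eq_iff_eq_mul] using this
    · exact ho _ ⟨m, rfl⟩
  refine isCyclic_of_card_pow_eq_one_le fun n n0 => ?_
  simpa [Set.ncard_eq_toFinset_card'] using key n n0

variable {k V : Type*} [Field k] [AddCommGroup V] [Module k V] [FiniteDimensional k V]
  {G : Type u} [Group G] {P : Subgroup (End k V)ˣ} {π : P →* G} {p : ℕ}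
  {g x y τ υ σ ρ : (End k V)ˣ} {v w e0 e1 e2 e3 : V} {d0 d1 d2 d3 : k} {E : Submodule k V}

theorem basis_of (hE : finrank k E = 2) (hv : v ∈ E) (v0 : v ≠ 0) :
    ∃ w ∈ E, (∀ a b : k, a • v + b • w = 0 → a = 0 ∧ b = 0) ∧ ∀ z ∈ E, ∃ a b : k, z = a • v + b • w := by
  obtain ⟨w, hw, hw'⟩ := Orth.exists_mem_notMem_of_finrank_lt (H := E) (X := Submodule.span k {v})
    (by rw [finrank_span_singleton v0]; omega)
  have ind : ∀ a b : k, a • v + b • w = 0 → a = 0 ∧ b = 0 := fun a b e => by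
    obtain rfl : b = 0 := by_contra fun b0 => hw' (Submodule.mem_span_singleton.2 ⟨-a / b,
      smul_right_injective V b0 (by
        simp only [smul_smul]
        rw [mul_div_cancel₀ _ b0]; linear_combination (norm := module) -e)⟩)
    exact ⟨by simpa [v0] using e, rfl⟩
  refine ⟨w, hw, ind, fun z hz => ?_⟩
  have h1 : Submodule.span k (Set.range ![v, w]) = E := Submodule.eq_of_le_of_finrank_eq
    (Submodule.span_le.2 (by rintro _ ⟨i, rfl⟩; fin_cases i; exacts [hv, hw])) (by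
      rw [finrank_span_eq_card (LinearIndependent.pair_iff.2 ind), hE]; simp)
  obtain ⟨c, hc⟩ := (Submodule.mem_span_range_iff_exists_fun k).1 (h1 ▸ hz)
  exact ⟨c 0, c 1, by simpa [Fin.sum_univ_two] using hc.symm⟩

theorem ex0 (hE : finrank k E = 2) : ∃ v ∈ E, v ≠ 0 :=
  Submodule.exists_mem_ne_zero_of_ne_bot fun e => by subst e; simp at hE

theorem q2 {X : End k V} {α β : k} (e : X v = α • v ∨ X v = β • v) :
    ((X - α • 1) * (X - β • 1)) v = (0 : End k V) v := by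
  rcases e with e | e <;> simp only [End.mul_apply, LinearMap.sub_apply, LinearMap.smul_apply,
    End.one_apply, map_sub, map_smul, e, LinearMap.zero_apply] <;> module

theorem sb_ev (e : x * τ = τ * x) : Sb x (Ev τ) := fun v hv =>
  mem_Ev.2 (by rw [← um, ← e, um, mem_Ev.1 hv])

theorem sw_ev (e : σ * τ = -(τ * σ)) (hv : v ∈ Ev (-τ)) : σ.1 v ∈ Ev τ := mem_Ev.2 (by
  rw [← um, ← neg_neg (τ * σ), ← e, Units.val_neg, LinearMap.neg_apply, um, mem_Ev'.1 hv, map_neg, neg_neg])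

variable [IsAlgClosed k]

theorem ch2 (hE : finrank k E = 2) {X : End k V} (hX : ∀ v ∈ E, X v ∈ E) :
    ∃ α β : k, ∀ v ∈ E, ((X - α • 1) * (X - β • 1)) v = 0 := by
  obtain ⟨α, v, hv, v0, e⟩ := eigv (ex0 hE) hX
  obtain ⟨w, hw, -, sp⟩ := basis_of hE hv v0
  obtain ⟨a, β, e'⟩ := sp _ (hX w hw)
  refine ⟨α, β, fun z hz => ?_⟩
  obtain ⟨s, t, rfl⟩ := sp z hz
  simp only [End.mul_apply, LinearMap.sub_apply, LinearMap.smul_apply, End.one_apply, map_add, map_sub,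
    map_smul, e, e']
  module

/-- an element acting in the same way on both eigenspaces is quadratic -/
theorem quad_sw (h : Beta P π) (hx : x ∈ P) (c : Dc (Ev τ) (Ev (-τ))) (e : σ * τ = -(τ * σ))
    (h1 : x * τ = τ * x) (h2 : x * σ = σ * x) : Sc (x * x) := by
  obtain ⟨α, β, q⟩ := ch2 c.d1 (sb_ev h1)
  refine quad h hx (α := α) (β := β) (c.ext q fun v hv => u_inj σ ?_)
  have h3 : ∀ z, σ.1 (x.1 z) = x.1 (σ.1 z) := fun z => by rw [← um, ← h2, um]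
  have := q _ (sw_ev e hv)
  simp only [End.mul_apply, LinearMap.sub_apply, LinearMap.smul_apply, End.one_apply, map_sub,
    map_smul, h3, LinearMap.zero_apply, map_zero] at this ⊢
  exact this

/-- the elements acting as scalars on the fixed space of `τ` -/
def KS (π : P →* G) (τ : (End k V)ˣ) : Subgroup G where
  carrier := {x | ∃ a : P, π a = x ∧ a.1 * τ = τ * a.1 ∧ ∃ c : k, ∀ v ∈ Ev τ, a.1.1 v = c • v}
  one_mem' := ⟨1, map_one π, by simp, 1, by simp⟩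
  mul_mem' := by
    rintro _ _ ⟨a, rfl, h1, c, h2⟩ ⟨b, rfl, h3, d, h4⟩
    exact ⟨a * b, map_mul π a b, by rw [Subgroup.coe_mul, mul_assoc, h3, ← mul_assoc, h1, mul_assoc],
      d * c, fun v hv => by rw [Subgroup.coe_mul, um, h4 v hv, map_smul, h2 v hv, smul_smul]⟩
  inv_mem' := by
    rintro _ ⟨a, rfl, h1, c, h2⟩
    refine ⟨a⁻¹, map_inv π a, (show Commute a.1 τ from h1).inv_left, c⁻¹, fun v hv => ?_⟩
    by_cases v0 : v = 0
    · simp [v0]
    have c0 : c ≠ 0 := fun e => u_ne a.1 v0 (by rw [h2 v hv, e, zero_smul])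
    exact u_inj a.1 (by rw [Subgroup.coe_inv, iu, map_smul, h2 v hv, smul_smul, inv_mul_cancel₀ c0, one_smul])

theorem ks_iff (h : St P π) (a : P) :
    π a ∈ KS π τ ↔ a.1 * τ = τ * a.1 ∧ ∃ c : k, ∀ v ∈ Ev τ, a.1.1 v = c • v := by
  refine ⟨fun ⟨b, e, h1, c, h2⟩ => ?_, fun e => ⟨a, rfl, e⟩⟩
  obtain ⟨z, ⟨d, hd⟩, e'⟩ := sc_eq h e.symm
  exact ⟨by rw [e', mul_assoc, h1, ← mul_assoc, Sc.comm ⟨d, hd⟩, mul_assoc], d * c, fun v hv => by
    rw [e', um, h2 v hv, hd]; simp [smul_smul, mul_comm]⟩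

theorem two_sc (h : St P π) (c : Dc (Ev τ) (Ev (-τ))) {a b : k} (h1 : ∀ v ∈ Ev τ, x.1 v = a • v)
    (h2 : ∀ v ∈ Ev (-τ), x.1 v = b • v) (e : a * a = b * b) : x.1 = a • 1 ∨ x.1 = a • τ.1 := by
  rcases mul_self_eq_mul_self_iff.1 e with rfl | rfl
  · exact Or.inl (c.ext h1 h2)
  · exact Or.inr (c.ext (fun v hv => by rw [h1 v hv]; simp [mem_Ev.1 hv])
      fun v hv => by rw [h2 v hv]; simp [mem_Ev'.1 hv])

theorem ks_i (h : Beta P π) {τ : P} (c : Dc (Ev τ.1) (Ev (-τ.1))) {x : G} (hx : x ∈ KS π τ.1)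
    (x2 : x * x = 1) : x = 1 ∨ x = π τ := by
  obtain ⟨ν, rfl, n2⟩ := lift2 h x2
  obtain ⟨h1, a, h2⟩ := (ks_iff h.toSt ν).1 hx
  refine or_iff_not_imp_left.2 fun n1 => ?_
  have ns : ¬ Sc ν.1 := fun s => n1 ((h.ker ν).2 s)
  have q : ν.1.1 * ν.1.1 = 1 := congrArg Units.val n2
  obtain ⟨v, hv, v0⟩ := ex0 c.d1
  have a2 : a * a = 1 := smul_left_injective k v0 (by
    simp only [mul_smul, ← h2 v hv, ← map_smul, ← End.mul_apply, q, one_smul, End.one_apply])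
  have e : (ν.1.1 - (-a) • 1) * (ν.1.1 - a • 1) = 0 := by
    simp only [nc k V, q, smul_smul]; linear_combination (norm := module) (-a2) • (1 : End k V)
  have h3 : LinearMap.range (ν.1.1 - a • 1) = Ev (-τ.1) := Submodule.eq_of_le_of_finrank_eq (by
    rintro _ ⟨z, rfl⟩
    obtain ⟨z1, m1, z2, m2, rfl⟩ := c.dec z
    simp only [map_add, LinearMap.sub_apply, h2 z1 m1, LinearMap.smul_apply, End.one_apply, sub_self, zero_add]
    exact sub_mem (sb_ev (by simp [h1]) z2 m2) (Submodule.smul_mem _ _ m2))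
    (by rw [(rk_half h ν.2 ns e).1, c.d2])
  refine h.eq_iff.2 ⟨a, (two_sc h.toSt c h2 (b := -a) (fun z hz => ?_) (by ring)).resolve_left
    fun e => ns ⟨a, e⟩⟩
  obtain ⟨w, rfl⟩ := h3.ge hz
  simpa [sub_eq_zero, add_eq_zero_iff_eq_neg] using LinearMap.congr_fun e w

theorem ks_s (h : Beta P π) {τ σ : P} (c : Dc (Ev τ.1) (Ev (-τ.1))) (e : σ.1 * τ.1 = -(τ.1 * σ.1))
    {x : G} (hx : x ∈ KS π τ.1) : x * x = 1 ∨ x * x = π τ := by
  obtain ⟨a, rfl, h1, l, h2⟩ := hx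
  have e' : σ.1⁻¹ * -τ.1 = -(-τ.1 * σ.1⁻¹) := by
    rw [mul_neg, neg_mul, neg_neg, neg_eq_iff_eq_neg, inv_mul_eq_iff_eq_mul, mul_neg, ← mul_assoc, e]; simp
  have h3 : ∀ v ∈ Ev (-τ.1), (σ⁻¹ * a * σ).1.1 v = l • v := fun v hv => by
    simp only [Subgroup.coe_mul, um, h2 _ (sw_ev e hv), map_smul, Subgroup.coe_inv, ui]
  have h4 : Sb a.1 (Ev (-τ.1)) := sb_ev (by simp [h1])
  obtain ⟨α, β, q⟩ := ch2 c.d2 h4
  obtain ⟨m, hm⟩ := quad h (a * (σ⁻¹ * a * σ)).2 (α := l * α) (β := l * β) (c.ext (fun v hv => by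
      have m1 : σ.1.1 v ∈ Ev (-τ.1) := sw_ev (by simp [e]) (by simpa using hv)
      have m2 : ∀ z ∈ Ev (-τ.1), a.1.1 (σ.1⁻¹.1 z) = l • σ.1⁻¹.1 z := fun z hz =>
        h2 _ (by simpa using sw_ev (τ := τ.1) (σ := σ.1⁻¹) (by simpa [neg_eq_iff_eq_neg] using e') hz)
      have := congrArg (fun z => (l * l) • σ.1⁻¹.1 z) (q _ m1)
      simp only [End.mul_apply, LinearMap.sub_apply, LinearMap.smul_apply, End.one_apply, map_sub,
        map_smul, LinearMap.zero_apply, map_zero, Subgroup.coe_mul, um, Subgroup.coe_inv, ui, iu,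
        m2 _ (h4 _ m1), m2 _ (h4 _ (h4 _ m1)), smul_zero] at this ⊢
      linear_combination (norm := module) this) fun v hv => by
      have := congrArg (fun z => (l * l) • z) (q _ hv)
      have m2 : ∀ z ∈ Ev (-τ.1), (a * (σ⁻¹ * a * σ)).1.1 z = l • a.1.1 z := fun z hz => by
        rw [Subgroup.coe_mul, um, h3 z hz, map_smul]
      simp only [End.mul_apply, LinearMap.sub_apply, LinearMap.smul_apply, End.one_apply, map_sub,
        map_smul, LinearMap.zero_apply, m2 v hv, m2 _ (h4 v hv), smul_zero] at this ⊢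
      linear_combination (norm := module) this)
  obtain ⟨v, hv, v0⟩ := ex0 c.d1
  have l0 : l ≠ 0 := fun e => u_ne a.1 v0 (by rw [h2 v hv, e, zero_smul])
  have h5 : ∀ z ∈ Ev τ.1, (a * a).1.1 z = (l * l) • z := fun z hz => by
    rw [Subgroup.coe_mul, um, h2 z hz, map_smul, h2 z hz, smul_smul]
  have h6 : ∀ z ∈ Ev (-τ.1), (a * a).1.1 z = (m / (l * l)) • z := fun z hz => by
    have := LinearMap.congr_fun hm z
    rw [um, Subgroup.coe_mul, um, um, h3 z hz, map_smul, map_smul, h3 _ (h4 z hz), map_smul, map_smul,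
      smul_smul] at this
    refine smul_right_injective V (mul_ne_zero l0 l0) ?_
    simp only [smul_smul]
    rw [mul_div_cancel₀ _ (mul_ne_zero l0 l0)]
    exact this
  obtain ⟨n, hn⟩ := quad h (a * a).2 (α := l * l) (β := m / (l * l)) (c.ext (fun z hz =>
    q2 (Or.inl (h5 z hz))) fun z hz => q2 (Or.inr (h6 z hz)))
  obtain ⟨w, hw, w0⟩ := ex0 c.d2
  have k1 := LinearMap.congr_fun hn v
  have k2 := LinearMap.congr_fun hn w
  rw [um, h5 v hv, map_smul, h5 v hv, smul_smul] at k1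
  rw [um, h6 w hw, map_smul, h6 w hw, smul_smul] at k2
  rw [← map_mul]
  exact (two_sc h.toSt c h5 h6 ((smul_left_injective k v0 k1).trans
    (smul_left_injective k w0 k2).symm)).imp (fun e => (h.ker _).2 ⟨_, e⟩) fun e => h.eq_iff.2 ⟨_, e⟩

/-- a diagonal square root of `τ` -/
theorem root (h : Beta P π) (hx : x ∈ P) (hυ : υ ∈ P) (f : Fr τ υ e0 e1 e2 e3)
    (d : Dg x e0 e1 e2 e3 d0 d1 d2 d3) {c : k} (e : (x * x).1 = c • τ.1) :
    (d1 = d0 ∧ d3 = -d2 ∨ d1 = -d0 ∧ d3 = d2) ∧ d2 * d2 = -(d0 * d0) := by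
  obtain ⟨h0, h1, h2, h3⟩ := f.of_smul (d.mul d) f.dgt e
  have key : ∀ {y : (End k V)ˣ}, y ∈ P → Dg y e0 e1 e2 e3 d0 d0 d2 d2 → False := fun {y} hy b => by
    obtain ⟨m, hm⟩ := quad h hy (α := d0) (β := d2) (f.i4.ext f.dim (q2 (Or.inl b.h0))
      (q2 (Or.inl b.h1)) (q2 (Or.inr b.h2)) (q2 (Or.inr b.h3)))
    obtain ⟨k0, -, k2, -⟩ := f.of_smul (b.mul b) (dg_one _ _ _ _) hm
    have : (2 : k) * (d0 * d0) = 0 := by linear_combination k0 - k2 + h0 + h2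
    exact u_ne x f.ne0 (by
      rw [d.h0, mul_self_eq_zero.1 ((mul_eq_zero.1 this).resolve_left f.two), zero_smul])
  refine ⟨?_, by linear_combination h0 + h2⟩
  rcases mul_self_eq_mul_self_iff.1 (h1.trans h0.symm) with rfl | rfl <;>
    rcases mul_self_eq_mul_self_iff.1 (h3.trans h2.symm) with rfl | rfl
  · exact (key hx d).elim
  · exact Or.inl ⟨rfl, rfl⟩
  · exact Or.inr ⟨rfl, rfl⟩
  · exact (key (P.mul_mem hx hυ) (by simpa using d.mul f.dgu)).elim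

theorem kk (h : Beta P π) {t : G} (ht : IsInv t) : ∃ K1 K2, KK (Yc π) (Nc π) t K1 K2 := by
  obtain ⟨τ, rfl, s2⟩ := lift2 h ht.1
  have c := dc2 h τ.2 s2 fun s => ht.2 ((h.ker τ).2 s)
  let τ' : P := ⟨-τ.1, h.neg τ.2⟩
  have e' : π τ' = π τ := pi_neg h.toSt τ _
  have c' : Dc (Ev τ'.1) (Ev (-τ'.1)) := by simpa [τ'] using c.symm
  have y1 : ∀ τ : P, ∀ x ∈ KS π τ.1, Yc π x (π τ) := fun τ x ⟨a, e, h1, _⟩ => ⟨a, τ, e, rfl, h1⟩
  have n1 : ∀ (τ : P) (g : G), Yc π g (π τ) → ∀ x ∈ KS π τ.1, g * x * g⁻¹ ∈ KS π τ.1 := fun τ g hg => by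
    obtain ⟨b, rfl⟩ := h.surj g
    rw [yc_iff h.toSt] at hg
    rintro _ ⟨a, rfl, h1, l, h2⟩
    refine ⟨b * a * b⁻¹, by simp, ((show Commute b.1 τ.1 from hg).mul_left h1).mul_left
      (show Commute b.1 τ.1 from hg).inv_left, l, fun v hv => ?_⟩
    simp only [Subgroup.coe_mul, um, Subgroup.coe_inv, h2 _ ((sb_ev hg).inv v hv), map_smul, iu]
  have s1 : ∀ τ : P, Dc (Ev τ.1) (Ev (-τ.1)) → ∀ s, Nc π s (π τ) → ∀ x ∈ KS π τ.1,
      x * x = 1 ∨ x * x = π τ := fun τ c s hs x hx => by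
    obtain ⟨σ, rfl⟩ := h.surj s
    exact ks_s h c ((nc_iff h.toSt _ _).1 hs) hx
  refine ⟨_, _, y1 τ, e' ▸ y1 τ', n1 τ, e' ▸ n1 τ', ?_, fun x hx => ks_i h c hx,
    fun x hx => e' ▸ ks_i h c' hx, s1 τ c, e' ▸ s1 τ' c', fun u y f h1 h2 h3 => ?_⟩
  · rintro _ ⟨a, rfl, h1, l, h2⟩ _ ⟨b, rfl, h3, m, h4⟩
    refine ⟨a, b, rfl, rfl, Units.ext (c.ext (fun v hv => ?_) fun v hv => ?_)⟩
    · rw [um, um, h2 v hv, h2 _ (sb_ev (by simpa [τ'] using h3) v hv), map_smul]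
    · rw [um, um, h4 v hv, h4 _ (sb_ev (τ := -τ.1) (by simp [h1]) v hv), map_smul]
  · obtain ⟨τ0, υ, e0, e1, e2, e3, k1, rfl, k2, -, k3, f0⟩ := frame h f
    obtain ⟨a, rfl⟩ := h.surj y
    have key : ∀ τ1 : P, π τ1 = π τ → ∀ {e0 e1 e2 e3 : V}, Fr τ1.1 υ.1 e0 e1 e2 e3 →
        (π a ∈ KS π τ1.1 ∧ π a * π υ ∈ KS π (-τ1.1)) ∨ (π a ∈ KS π (-τ1.1) ∧ π a * π υ ∈ KS π τ1.1) := by
      intro τ1 k1 e0 e1 e2 e3 f
      rw [← k1] at h1 h3
      rw [yc_iff h.toSt] at h1 h2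
      obtain ⟨l, hl⟩ := h.eq_iff.1 ((map_mul π a a).trans h3)
      obtain ⟨d0, d1, d2, d3, d⟩ := f.diag h1 h2
      have du := d.mul f.dgu
      have cu : (a * υ).1 * τ1.1 = τ1.1 * (a * υ).1 := f.dg_comm du f.dgt
      have p1 : ∀ {b : P} {l d2 d3 : k}, b.1 * τ1.1 = τ1.1 * b.1 → Dg b.1 e0 e1 e2 e3 l l d2 d3 →
          π b ∈ KS π τ1.1 := fun {b l d2 d3} h1 d => ⟨b, rfl, h1, l, fun v hv => by
        obtain ⟨s, t, rfl⟩ := f.plane (mem_Ev.1 hv)
        simp only [map_add, map_smul, d.h0, d.h1]; module⟩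
      have p2 : ∀ {b : P} {l d0 d1 : k}, b.1 * τ1.1 = τ1.1 * b.1 → Dg b.1 e0 e1 e2 e3 d0 d1 l l →
          π b ∈ KS π (-τ1.1) := fun {b l d0 d1} h1 d => ⟨b, rfl, by simp [h1], l, fun v hv => by
        obtain ⟨s, t, rfl⟩ := f.plane' (mem_Ev'.1 hv)
        simp only [map_add, map_smul, d.h2, d.h3]; module⟩
      rw [← map_mul]
      rcases (root h a.2 υ.2 f d hl).1 with ⟨rfl, rfl⟩ | ⟨rfl, rfl⟩
      · exact Or.inl ⟨p1 h1 d, p2 cu (by simpa using du)⟩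
      · exact Or.inr ⟨p2 h1 d, p1 cu (by simpa using du)⟩
    obtain ⟨l, hl⟩ := h.eq_iff.1 k1
    have l2 : l * l = 1 := h.sc' (by
      have := congrArg Units.val k2
      rwa [Units.val_mul, hl, smul_mul_smul_comm, ← Units.val_mul, s2, ← one_smul k (Units.val 1),
        smul_smul, mul_one] at this)
    rcases mul_self_eq_one_iff.1 l2 with rfl | rfl
    · obtain rfl : τ0 = τ := Subtype.ext (Units.ext (by simpa using hl))
      exact key τ0 rfl f0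
    · have : τ.1 = -τ0.1 := Units.ext (by simp [hl])
      exact key τ rfl (this ▸ f0.negt)

theorem cy_odd (p : ℕ) [hp : Fact p.Prime] [CharP k p] (h : Beta P π) {τ σ : P} (c : Dc (Ev τ.1) (Ev (-τ.1))) (e : σ.1 * τ.1 = -(τ.1 * σ.1))
    (X : Subgroup G) (hX : ∀ x ∈ X, Yc π x (π τ) ∧ π σ * x * (π σ)⁻¹ = x⁻¹) (cm : ∀ a b : X, a * b = b * a)
    {n : ℕ} (hn : Odd n) : Set.ncard {x : X | x ^ n = 1} ≤ n := by
  classical
  have := h.finG
  let L : Set P := {a | π a ∈ X ∧ a.1 ^ n = 1}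
  have cL : ∀ a ∈ L, ∀ b ∈ L, a.1 * b.1 = b.1 * a.1 := fun a ha b hb =>
    comm h.toSt hn hb.2 (mem_Cen.2 (congrArg Subtype.val (cm ⟨_, hb.1⟩ ⟨_, ha.1⟩)))
  have sL : ∀ a ∈ L, Sb a.1 (Ev τ.1) := fun a ha => sb_ev ((yc_iff h.toSt _ _).1 (hX _ ha.1).1)
  obtain ⟨v, hv, v0, ev⟩ : ∃ v ∈ Ev τ.1, v ≠ 0 ∧ ∀ a ∈ L, ∃ l : k, a.1.1 v = l • v := by
    by_cases hs : ∀ a ∈ L, ∃ l : k, ∀ v ∈ Ev τ.1, a.1.1 v = l • v
    · obtain ⟨v, hv, v0⟩ := ex0 c.d1
      exact ⟨v, hv, v0, fun a ha => let ⟨l, hl⟩ := hs a ha; ⟨l, hl v hv⟩⟩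
    push Not at hs
    obtain ⟨b, hb, hs⟩ := hs
    obtain ⟨l, v, hv, v0, ev⟩ := eigv (ex0 c.d1) (sL b hb)
    obtain ⟨w, hw, ind, sp⟩ := basis_of c.d1 hv v0
    refine ⟨v, hv, v0, fun a ha => ?_⟩
    obtain ⟨s, t, e1⟩ := sp _ (sL a ha v hv)
    refine ⟨s, by_contra fun ne => ?_⟩
    have t0 : t ≠ 0 := fun e => ne (by simp [e1, e])
    obtain ⟨z, hz, ne'⟩ := hs l
    obtain ⟨s', t', rfl⟩ := sp z hz
    have e2 : b.1.1 (a.1.1 v) = l • a.1.1 v := by rw [← um, ← cL a ha b hb, um, ev, map_smul]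
    rw [e1, map_add, map_smul, map_smul, ev] at e2
    have e3 : b.1.1 w = l • w := smul_right_injective V t0 (by
      simp only; linear_combination (norm := module) e2)
    exact ne' (by rw [map_add, map_smul, map_smul, ev, e3]; module)
  obtain ⟨w, hw, ind, sp⟩ := basis_of c.d1 hv v0
  choose! α hα using ev
  have : ∀ a ∈ L, ∃ s t : k, a.1.1 w = s • v + t • w := fun a ha => sp _ (sL a ha w hw)
  choose! γ β hβ using this
  have uq : ∀ {a b a' b' : k}, a • v + b • w = a' • v + b' • w → b = b' := fun {a b a' b'} e =>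
    sub_eq_zero.1 (ind (a - a') (b - b') (by linear_combination (norm := module) e)).2
  have mL : ∀ a ∈ L, ∀ b ∈ L, a * b ∈ L := fun a ha b hb => ⟨map_mul π a b ▸ X.mul_mem ha.1 hb.1, by
    rw [Subgroup.coe_mul, Commute.mul_pow (cL a ha b hb), ha.2, hb.2, mul_one]⟩
  have mα : ∀ a ∈ L, ∀ b ∈ L, α (a * b) = α a * α b := fun a ha b hb => smul_left_injective k v0 (by
    simp only [← hα _ (mL a ha b hb), Subgroup.coe_mul, um, hα b hb, map_smul, hα a ha, smul_smul, mul_comm])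
  have mβ : ∀ a ∈ L, ∀ b ∈ L, β (a * b) = β a * β b := fun a ha b hb => uq (a' := γ b * α a + β b * γ a) (by
    rw [← hβ _ (mL a ha b hb), Subgroup.coe_mul, um, hβ b hb, map_add, map_smul, map_smul, hα a ha, hβ a ha]
    module)
  have L1 : (1 : P) ∈ L := ⟨map_one π ▸ X.one_mem, one_pow n⟩
  have α1 : α 1 = 1 := smul_left_injective k v0 (by simp [← hα 1 L1])
  have β1 : β 1 = 1 := uq (a := γ 1) (a' := 0) (by simp [← hβ 1 L1])
  have pL : ∀ a ∈ L, ∀ j : ℕ, a ^ j ∈ L ∧ α (a ^ j) = α a ^ j ∧ β (a ^ j) = β a ^ j := fun a ha j => by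
    induction j with
    | zero => simpa [α1, β1] using L1
    | succ j ih => rw [pow_succ, mα _ ih.1 a ha, mβ _ ih.1 a ha, ih.2.1, ih.2.2, pow_succ, pow_succ]
                   exact ⟨mL _ ih.1 a ha, rfl, rfl⟩
  have pn : ∀ a ∈ L, α a ^ n = 1 ∧ β a ^ n = 1 := fun a ha => by
    have e : a ^ n = 1 := Subtype.ext ha.2
    rw [← (pL a ha n).2.1, ← (pL a ha n).2.2, e]
    exact ⟨α1, β1⟩
  have inj : ∀ a ∈ L, α a = β a → a = 1 := fun a ha e0 => by
    have k1 : ∀ b ∈ L, ∀ l : k, (∀ z ∈ Ev τ.1, ((b.1.1 - l • 1) * (b.1.1 - l • 1)) z = 0) → l ≠ 0 →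
        ∀ z ∈ Ev (-τ.1), ((b.1.1 - l⁻¹ • 1) * (b.1.1 - l⁻¹ • 1)) z = 0 := fun b hb l q l0 z hz => by
      have e1 := conj_eq h.toSt (b := b⁻¹) hn hn hb.2 (by simp [hb.2]) (by rw [(hX _ hb.1).2, map_inv])
      have e2 : ∀ z, σ.1.1 (b.1.1 z) = b.1⁻¹.1 (σ.1.1 z) := fun z => by
        rw [← um, ← um, mul_inv_eq_iff_eq_mul.1 e1]; rfl
      have := congrArg (fun z => (l⁻¹ * l⁻¹) • b.1⁻¹.1 (b.1⁻¹.1 z)) (q _ (sw_ev e hz))
      refine u_inj σ.1 ?_
      simp only [End.mul_apply, LinearMap.sub_apply, LinearMap.smul_apply, End.one_apply, map_sub,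
        map_smul, map_zero, e2, ui, smul_zero, smul_sub, smul_smul] at this ⊢
      rw [show l⁻¹ * l⁻¹ * l = l⁻¹ by field_simp, show l⁻¹ * l⁻¹ * (l * l) = 1 by field_simp] at this
      linear_combination (norm := module) this
    have q : ∀ z ∈ Ev τ.1, ((a.1.1 - α a • 1) * (a.1.1 - α a • 1)) z = 0 := fun z hz => by
      obtain ⟨s, t, rfl⟩ := sp z hz
      simp only [End.mul_apply, LinearMap.sub_apply, LinearMap.smul_apply, End.one_apply, map_add, map_sub,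
        map_smul, hα a ha, hβ a ha, e0]
      module
    have l0 : α a ≠ 0 := fun e => u_ne a.1 v0 (by rw [hα a ha, e, zero_smul])
    have fr : ∀ {l : k} {z : V}, ((a.1.1 - l • 1) * (a.1.1 - l • 1)) z = 0 → (a ^ p).1.1 z = l ^ p • z :=
      fun {l z} q => by
        obtain ⟨j, hj⟩ : ∃ j, p = j + 2 := ⟨p - 2, by have := hp.out.two_le; omega⟩
        have := LinearMap.congr_fun (frob (p := p) h.toSt a.1.1 l) z
        rw [hj, pow_add, End.mul_apply, sq, q, map_zero, ← hj, eq_comm, LinearMap.sub_apply, sub_eq_zero] at this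
        simpa using this
    have k2 := quad1 h (a ^ p).2 hn (pL a ha p).1.2 (α := α a ^ p) (β := (α a)⁻¹ ^ p) (c.ext
      (fun z hz => q2 (Or.inl (fr (q z hz)))) fun z hz => q2 (Or.inr (fr (k1 a ha _ q l0 z hz))))
    have k3 : α a = 1 := by
      have := (pL a ha p).2.1
      rw [show a ^ p = 1 from Subtype.ext k2, α1] at this
      exact frobenius_inj k p (by rw [frobenius_def, ← this, map_one])
    rw [k3] at q
    exact Subtype.ext (quad1 h a.2 hn ha.2 (α := 1) (β := 1) (c.ext q (by simpa using k1 a ha 1 q one_ne_zero)))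
  have lf : ∀ x : X, x ^ n = 1 → ∃ a ∈ L, π a = x := fun x hx =>
    let ⟨a, h1, h2⟩ := lift h.toSt hn (congrArg Subtype.val hx); ⟨a, ⟨h1 ▸ x.2, h2⟩, h1⟩
  choose! f hf using lf
  refine le_trans (Set.ncard_le_ncard_of_injOn (t := ((Polynomial.nthRoots n (1 : k)).toFinset : Set k))
    (fun x => α (f x) / β (f x)) (fun x hx => ?_) fun x hx y hy e => ?_) ?_
  · have := pn _ (hf x hx).1
    simp [Polynomial.mem_nthRoots hn.pos, div_pow, this.1, this.2]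
  · obtain ⟨m, rfl⟩ : ∃ m, n = m + 1 := ⟨n - 1, by have := hn.pos; omega⟩
    have a1 := pn _ (hf x hx).1
    have a2 := pn _ (hf y hy).1
    have a3 := pL _ (hf y hy).1 m
    have b0 : ∀ {z : k}, z ^ (m + 1) = 1 → z ≠ 0 := fun e z0 => by simp [z0] at e
    have := inj _ (mL _ (hf x hx).1 _ a3.1) (by
      rw [mα _ (hf x hx).1 _ a3.1, mβ _ (hf x hx).1 _ a3.1, a3.2.1, a3.2.2]
      rw [div_eq_div_iff (b0 a1.2) (b0 a2.2)] at e
      refine mul_right_cancel₀ (mul_ne_zero (b0 a2.1) (b0 a2.2)) ?_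
      linear_combination α (f x) * β (f y) * a2.1 - β (f x) * α (f y) * a2.2 + e)
    have := congrArg π this
    rw [map_mul, map_pow, (hf x hx).2, (hf y hy).2, map_one] at this
    refine Subtype.ext (mul_right_cancel (this.trans ?_))
    rw [← pow_succ']; exact (congrArg Subtype.val hy).symm
  · rw [Set.ncard_coe_finset]
    exact (Multiset.toFinset_card_le _).trans (Polynomial.card_nthRoots n 1)

theorem _root_.Cfsg.Agent.H6.L4.Beta.ax (p : ℕ) [Fact p.Prime] [CharP k p] (h : Beta P π) :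
    Ax G (Yc π) (Nc π) := by
  have S := h.toSt
  have yi := yc_iff S
  have ni := nc_iff S
  have s := h.surj
  have nb : ∀ {a b : P}, a.1 * b.1 = b.1 * a.1 → a.1 * b.1 = -(b.1 * a.1) → False := fun h1 h2 =>
    h.neg_ne_one (mul_right_cancel ((neg_one_mul _).trans ((h2.symm.trans h1).trans (one_mul _).symm)))
  refine ⟨h.sn, h.finG, ?_, ?_, fun ⟨x, y, a, b, e⟩ => ⟨y, x, b, a, e.symm⟩,
    fun ⟨x, y, a, b, e⟩ => ⟨y, x, b, a, by rw [e, neg_neg]⟩, fun a => let ⟨x, e⟩ := s a; ⟨x, x, e, e, rfl⟩,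
    fun a => let ⟨x, e⟩ := s a; ⟨1, x, map_one π, e, by simp⟩, ?_, ?_, ?_, ?_, ?_, ?_, ?_, ?_, ?_, ?_, ?_,
    ?_, ?_, ?_, ?_, ?_, kk h, ?_⟩
  · rintro _ _ ⟨x, y, rfl, rfl, e⟩
    rw [← map_mul, ← map_mul, show x * y = y * x from Subtype.ext e]
  · rintro _ _ ⟨x, y, rfl, rfl, e⟩
    rw [← map_mul, ← map_mul]
    exact h.eq_iff.2 ⟨-1, by simp [e]⟩
  iterate 4
    intro a b x h1 h2
    obtain ⟨a, rfl⟩ := s a; obtain ⟨b, rfl⟩ := s b; obtain ⟨x, rfl⟩ := s x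
    simp only [← map_mul, yi, ni, Subgroup.coe_mul] at h1 h2 ⊢
    simp only [mul_assoc, h2, mul_neg, neg_mul, neg_neg]
    simp only [← mul_assoc, h1, mul_neg, neg_mul, neg_neg]
  · rintro _ _ ⟨x, y, rfl, rfl, e⟩
    exact ⟨x⁻¹, y, map_inv π x, rfl, (show Commute x.1 y.1 from e).inv_left⟩
  · rintro _ _ ⟨x, y, rfl, rfl, e⟩
    refine ⟨x⁻¹, y, map_inv π x, rfl, ?_⟩
    rw [Subgroup.coe_inv, inv_mul_eq_iff_eq_mul, mul_neg, ← mul_assoc, e]; simp
  · rintro _ _ ⟨x, y, rfl, rfl, e⟩ h2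
    exact nb e ((ni x y).1 h2)
  iterate 2
    rintro _ _ g ⟨x, y, rfl, rfl, e⟩
    obtain ⟨g, rfl⟩ := s g
    exact ⟨g * x * g⁻¹, g * y * g⁻¹, by simp, by simp, by
      simp only [Subgroup.coe_mul, Subgroup.coe_inv, mul_assoc, inv_mul_cancel_left]
      rw [← mul_assoc x.1, e]; simp [mul_assoc]⟩
  · intro g t t2 e
    obtain ⟨τ, rfl, s2⟩ := lift2 h t2
    obtain ⟨g, rfl⟩ := s g
    rw [← map_mul, ← map_mul] at e
    obtain ⟨c, hc⟩ := h.eq_iff.1 e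
    have q : τ.1.1 * τ.1.1 = 1 := congrArg Units.val s2
    simp only [Subgroup.coe_mul, Units.val_mul] at hc
    have : c * c = 1 := h.sc' (by
      have e1 : g.1.1 * (τ.1.1 * τ.1.1) = (c * c) • (τ.1.1 * τ.1.1 * g.1.1) := by
        rw [← mul_assoc, hc, smul_mul_assoc, mul_assoc, hc]; simp only [nc k V, smul_smul]
      rw [q, mul_one, one_mul] at e1
      have := congrArg (· * g.1⁻¹.1) e1
      simpa using this.symm)
    rw [yi, ni]
    exact (mul_self_eq_one_iff.1 this).imp (fun e => Units.ext (by simpa [e] using hc))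
      fun e => Units.ext (by simpa [e] using hc)
  · intro g x n hn e c
    obtain ⟨a, rfl, an⟩ := lift S hn e
    obtain ⟨x, rfl⟩ := s x
    exact (yi _ _).2 (comm S hn an (mem_Cen.2 c)).symm
  · intro t u w f h1 h2
    obtain ⟨τ, υ, e0, e1, e2, e3, rfl, rfl, s2, r2, c, f0⟩ := frame h f
    obtain ⟨w, rfl⟩ := s w
    rw [← map_inv, ← map_mul, ← map_mul, ← map_mul] at h2
    obtain ⟨l, hl⟩ := h.eq_iff.1 h2
    rw [ni] at h1
    rw [← map_mul, ni]
    have q1 : τ.1.1 * τ.1.1 = 1 := congrArg Units.val s2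
    have q2 : υ.1.1 * υ.1.1 = 1 := congrArg Units.val r2
    have q3 : τ.1.1 * υ.1.1 = υ.1.1 * τ.1.1 := congrArg Units.val c
    have q4 : w.1.1 * τ.1.1 = -(τ.1.1 * w.1.1) := congrArg Units.val h1
    have q5 : w.1.1 * υ.1.1 = l • (τ.1.1 * (υ.1.1 * w.1.1)) := by
      simpa [mul_assoc] using congrArg (· * w.1.1) hl
    have l2 : l * l = 1 := h.sc' (by
      have e1 : w.1.1 * (υ.1.1 * υ.1.1) = (l * l) • (τ.1.1 * (υ.1.1 * τ.1.1) * υ.1.1 * w.1.1) := by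
        rw [← mul_assoc, q5, smul_mul_assoc, mul_assoc, mul_assoc, q5]; simp only [nc k V, smul_smul]
      rw [q2, mul_one, ← q3, ← mul_assoc, q1, one_mul, q2, one_mul] at e1
      simpa using (congrArg (· * w.1⁻¹.1) e1).symm)
    refine Units.ext ?_
    simp only [Subgroup.coe_mul, nc k V, q5]
    rw [← mul_assoc, q4, neg_mul, mul_assoc, ← mul_assoc w.1.1, q5]
    simp only [nc k V, smul_neg, smul_smul, l2, one_smul]
    rw [← mul_assoc, q1, one_mul]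
  · intro σ t x t2 h1 h2 h3
    obtain ⟨τ, rfl, s2⟩ := lift2 h t2
    obtain ⟨σ, rfl⟩ := s σ; obtain ⟨x, rfl⟩ := s x
    rw [ni] at h1
    rw [← map_mul, h.ker]
    exact quad_sw h x.2 (dc2 h τ.2 s2 fun e => nb (e.comm _).symm h1) h1 ((yi _ _).1 h3) ((yi _ _).1 h2)
  · intro t u v f v2 h1 h2
    obtain ⟨τ, υ, e0, e1, e2, e3, rfl, rfl, -, -, -, f0⟩ := frame h f
    obtain ⟨ν, rfl, n2⟩ := lift2 h v2
    obtain ⟨d0, d1, d2, d3, d⟩ := f0.diag ((yi _ _).1 h1) ((yi _ _).1 h2)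
    obtain ⟨k0, k1, k2, -⟩ := f0.of_smul (d.mul d) (dg_one _ _ _ _) (c := 1) (by rw [n2, one_smul])
    have k3 := (f0.det d).symm.trans (h.det _ ν.2)
    rw [← map_mul, ← map_one π]
    simp only [h.eq_iff]
    rcases mul_self_eq_mul_self_iff.1 (k1.trans k0.symm) with rfl | rfl <;>
      rcases mul_self_eq_mul_self_iff.1 (k2.trans k0.symm) with rfl | rfl
    · exact Or.inl ⟨_, f0.eq_smul d (dg_one _ _ _ _) (mul_one _).symm (mul_one _).symm (mul_one _).symm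
        (by linear_combination d2 * k3 - d3 * (d2 * d2 + 1) * k0)⟩
    · exact Or.inr (Or.inl ⟨_, f0.eq_smul d f0.dgt (mul_one _).symm (mul_one _).symm (by ring)
        (by linear_combination -d1 * k3 - d3 * (d1 * d1 + 1) * k0)⟩)
    · exact Or.inr (Or.inr (Or.inl ⟨_, f0.eq_smul d f0.dgu (mul_one _).symm (by ring) (mul_one _).symm
        (by linear_combination -d2 * k3 - d3 * (d2 * d2 + 1) * k0)⟩))
    · exact Or.inr (Or.inr (Or.inr ⟨d0, f0.eq_smul d (f0.dgt.mul f0.dgu) (by ring) (by ring) (by ring)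
        (by linear_combination d0 * k3 - d3 * (d0 * d0 + 1) * k0)⟩))
  · intro t u x y f h1 h2 h3 h4
    obtain ⟨τ, υ, e0, e1, e2, e3, rfl, rfl, -, -, -, f0⟩ := frame h f
    obtain ⟨x, rfl⟩ := s x; obtain ⟨y, rfl⟩ := s y
    obtain ⟨_, _, _, _, d⟩ := f0.diag ((yi _ _).1 h1) ((yi _ _).1 h2)
    obtain ⟨_, _, _, _, d'⟩ := f0.diag ((yi _ _).1 h3) ((yi _ _).1 h4)
    exact (yi _ _).2 (f0.dg_comm d d')
  · intro t u x g f h1 h2 h3 h4 h5
    obtain ⟨τ, υ, e0, e1, e2, e3, rfl, rfl, -, -, -, f0⟩ := frame h f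
    obtain ⟨x, rfl⟩ := s x; obtain ⟨g, rfl⟩ := s g
    obtain ⟨d0, d1, d2, d3, d⟩ := f0.diag ((yi _ _).1 h1) ((yi _ _).1 h2)
    obtain ⟨l, hl⟩ := h.eq_iff.1 ((map_mul π x x).trans h3)
    obtain ⟨k1, k2⟩ := root h x.2 υ.2 f0 d hl
    rw [yi] at h4
    rw [ni] at h5
    have g1 : ∀ z, τ.1.1 (g.1.1 z) = g.1.1 (τ.1.1 z) := fun z => by rw [← um, ← h4, um]
    have g2 : ∀ z, υ.1.1 (g.1.1 z) = -g.1.1 (υ.1.1 z) := fun z => by
      rw [← um, ← um, h5]; simp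
    obtain ⟨a0, b0⟩ := f0.line1 (v := g.1.1 e0) (by rw [g1, f0.t0]) (by rw [g2, f0.u0])
    obtain ⟨a1, b1⟩ := f0.line0 (v := g.1.1 e1) (by rw [g1, f0.t1]) (by rw [g2, f0.u1, map_neg, neg_neg])
    obtain ⟨a2, b2⟩ := f0.line3 (v := g.1.1 e2) (by rw [g1, f0.t2, map_neg]) (by rw [g2, f0.u2])
    obtain ⟨a3, b3⟩ := f0.line2 (v := g.1.1 e3) (by rw [g1, f0.t3, map_neg])
      (by rw [g2, f0.u3, map_neg, neg_neg])
    have k3 : d2 * d3 = d0 * d1 := by
      rcases k1 with ⟨rfl, rfl⟩ | ⟨rfl, rfl⟩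
      · linear_combination -k2
      · linear_combination k2
    simp only [← map_mul]
    refine h.eq_iff.2 ⟨d0 * d1, f0.i4.ext f0.dim ?_ ?_ ?_ ?_⟩ <;>
      simp only [Subgroup.coe_mul, um, LinearMap.smul_apply, map_smul, d.h0, d.h1, d.h2, d.h3, b0, b1, b2,
        b3, smul_smul] <;> congr 1
    · ring
    · ring
    · linear_combination a2 * a3 * k3
    · linear_combination a2 * a3 * k3
  · intro σ t X ht h1 h2 h3
    have := h.finG
    obtain ⟨τ, rfl, s2⟩ := lift2 h ht.1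
    obtain ⟨σ, rfl⟩ := s σ
    have cm : ∀ a b : X, a * b = b * a := fun a b => Subtype.ext (inv_injective (by
      rw [Subgroup.coe_mul, ← (h2 _ (X.mul_mem a.2 b.2)).2, Subgroup.coe_mul, mul_inv_rev,
        ← (h2 _ a.2).2, ← (h2 _ b.2).2]; group))
    have ho := fun n hn => cy_odd p h (dc2 h τ.2 s2 fun e => ht.2 ((h.ker τ).2 e)) ((ni _ _).1 h1) X h2 cm
      (n := n) hn
    by_cases m : π τ ∈ X
    · exact cyc_of cm (t := ⟨_, m⟩) (fun x e => (h3 x x.2 (congrArg Subtype.val e)).imp Subtype.ext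
        Subtype.ext) ho
    · exact cyc_of cm (t := 1) (fun x e => Or.inl (Subtype.ext ((h3 x x.2
        (congrArg Subtype.val e)).resolve_right fun e => m (e ▸ x.2)))) ho

end Cfsg.Agent.H7.FA
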