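import Cfsg.Agent.LD.F4.If
import Cfsg.Agent.H2.L4F2

/-! The generic case in `SL_4`: lifts of involutions and frames of type I four-groups. -/

set_option autoImplicit false
set_option linter.unusedSectionVars false
set_option linter.unusedVariables false
set_option linter.unusedSimpArgs false

namespace Cfsg.Agent.H7.FA

open Module Cfsg.Agent.H6.L4 Cfsg.Agent.H8.M3 Cfsg.Agent.LD.F4 Cfsg.Agent.H2.LF
open Cfsg.Agent.H6.S4 (nc um ui iu u_inj u_ne)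

universe u

variable {k V : Type*} [Field k] [AddCommGroup V] [Module k V] [FiniteDimensional k V]
  {G : Type u} [Group G] {P : Subgroup (End k V)ˣ} {π : P →* G}
  {g x y τ υ σ ρ : (End k V)ˣ} {v e0 e1 e2 e3 : V} {d0 d1 d2 d3 : k}

theorem sc_eq (h : St P π) {a b : P} (e : π a = π b) : ∃ z : (End k V)ˣ, Sc z ∧ a.1 = z * b.1 :=
  ⟨a.1 * b.1⁻¹, (h.ker (a * b⁻¹)).1 (by rw [map_mul, map_inv, e, mul_inv_cancel]), by simp⟩

theorem yc_iff (h : St P π) (a b : P) : Yc π (π a) (π b) ↔ a.1 * b.1 = b.1 * a.1 := by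
  refine ⟨fun ⟨x, y, hx, hy, e⟩ => ?_, fun e => ⟨a, b, rfl, rfl, e⟩⟩
  obtain ⟨z, hz, e1⟩ := sc_eq h hx.symm
  obtain ⟨w, hw, e2⟩ := sc_eq h hy.symm
  rw [e1, e2, mul_assoc, ← mul_assoc x.1, ← hw.comm, mul_assoc w, e, mul_assoc w, ← mul_assoc y.1,
    ← hz.comm y.1, ← mul_assoc z, hz.comm w]
  simp only [mul_assoc]

theorem nc_iff (h : St P π) (a b : P) : Nc π (π a) (π b) ↔ a.1 * b.1 = -(b.1 * a.1) := by
  refine ⟨fun ⟨x, y, hx, hy, e⟩ => ?_, fun e => ⟨a, b, rfl, rfl, e⟩⟩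
  obtain ⟨z, hz, e1⟩ := sc_eq h hx.symm
  obtain ⟨w, hw, e2⟩ := sc_eq h hy.symm
  rw [e1, e2, mul_assoc, ← mul_assoc x.1, ← hw.comm, mul_assoc w, e, mul_assoc w, ← mul_assoc y.1,
    ← hz.comm y.1, ← mul_assoc z, hz.comm w]
  simp only [mul_assoc, mul_neg]

theorem pi_neg (h : St P π) (a : P) (m : -a.1 ∈ P) : π ⟨-a.1, m⟩ = π a :=
  h.eq_iff.2 ⟨-1, by simp⟩

/-- the fixed space -/
def Ev (τ : (End k V)ˣ) : Submodule k V := LinearMap.ker (τ.1 - (1 : k) • 1)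

theorem mem_Ev : v ∈ Ev τ ↔ τ.1 v = v := by simp [Ev, sub_eq_zero]

theorem mem_Ev' : v ∈ Ev (-τ) ↔ τ.1 v = -v := by simp [mem_Ev, neg_eq_iff_eq_neg]

theorem rk_half (h : Beta P π) (hg : g ∈ P) (ns : ¬ Sc g) {α β : k}
    (e : (g.1 - α • 1) * (g.1 - β • 1) = 0) :
    finrank k (LinearMap.range (g.1 - β • 1)) = 2 ∧ finrank k (LinearMap.ker (g.1 - α • 1)) = 2 := by
  have h1 := rk2 h hg ns α
  have h2 := rk2 h hg ns β
  have h3 := (g.1 - α • 1).finrank_range_add_finrank_ker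
  have h4 := Submodule.finrank_mono (LinearMap.range_le_ker_iff.2 e)
  rw [h.dim] at h3
  omega

theorem dc2 (h : Beta P π) (hτ : τ ∈ P) (sq : τ * τ = 1) (ns : ¬ Sc τ) : Dc (Ev τ) (Ev (-τ)) := by
  have q : τ.1 * τ.1 = 1 := congrArg Units.val sq
  refine ⟨(rk_half h hτ ns (β := -1) (by simp only [nc k V, q]; module)).2,
    (rk_half h (h.neg hτ) (fun s => ns (by simpa using s.neg)) (β := -1)
      (by simp only [nc k V, q]; module)).2, fun v => ?_⟩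
  have q' : τ.1 (τ.1 v) = v := by rw [← um, sq]; rfl
  refine ⟨(2 : k)⁻¹ • (v + τ.1 v), mem_Ev.2 (by rw [map_smul, map_add, q', add_comm]),
    (2 : k)⁻¹ • (v - τ.1 v), mem_Ev'.2 (by rw [map_smul, map_sub, q', ← smul_neg, neg_sub]), ?_⟩
  have := h.two
  rw [← smul_add, add_add_sub_cancel, ← two_smul k, inv_smul_smul₀ this]

variable [IsAlgClosed k]

/-- an involution has a lift of order two -/
theorem lift2 (h : Beta P π) {t : G} (ht : t * t = 1) : ∃ τ : P, π τ = t ∧ τ.1 * τ.1 = 1 := by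
  obtain ⟨a, rfl⟩ := h.surj t
  by_cases ns : Sc a.1
  · exact ⟨1, by rw [map_one, (h.ker a).2 ns], mul_one _⟩
  obtain ⟨c, hc⟩ := (h.ker (a * a)).1 (by rw [map_mul, ht])
  have q : a.1.1 * a.1.1 = c • 1 := hc
  obtain ⟨α, rfl⟩ := IsAlgClosed.exists_eq_mul_self c
  have e : (a.1.1 - α • 1) * (a.1.1 - (-α) • 1) = 0 := by simp only [nc k V, q]; module
  have hd := det2 h.dim (rk_half h a.2 ns e).1 (X := a.1.1) (α := α) (β := -α) (by
    rintro _ ⟨w, rfl⟩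
    simpa [sub_eq_zero] using LinearMap.congr_fun e w) fun v => ⟨v, by simp⟩
  rw [h.det _ a.2] at hd
  rcases mul_self_eq_one_iff.1 (show α * α * (α * α) = 1 by linear_combination -hd) with e1 | e1
  · exact ⟨a, rfl, Units.ext (by rw [Units.val_mul, q, e1, one_smul]; rfl)⟩
  · have a0 : α ≠ 0 := by rintro rfl; simp at e1
    refine ⟨⟨sc V α a0, h.sc_mem a0 (by linear_combination -hd)⟩ * a, h.eq_iff.2 ⟨α, by
      simp [sc_val]⟩, Units.ext ?_⟩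
    simp only [Subgroup.coe_mul, nc k V, sc_val, q, smul_smul]
    rw [show α * (α * (α * α)) = 1 by linear_combination -hd, one_smul]

theorem joint (h : Beta P π) (hσ : σ ∈ P) (hρ : ρ ∈ P) (s2 : σ * σ = 1) (r2 : ρ * ρ = 1)
    (c : σ * ρ = ρ * σ) (n1 : ¬ Sc σ) (n2 : ¬ Sc ρ) (n3 : ¬ Sc (σ * ρ)) :
    ∃ v, v ≠ 0 ∧ σ.1 v = v ∧ ρ.1 v = v := by
  by_contra! H
  have h0 : Ev σ ⊓ Ev ρ = ⊥ := eq_bot_iff.2 fun v hv => by_contra fun v0 =>
    H v v0 (mem_Ev.1 hv.1) (mem_Ev.1 hv.2)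
  have h1 := Submodule.finrank_sup_add_finrank_inf_eq (Ev σ) (Ev ρ)
  rw [h0, finrank_bot, (dc2 h hσ s2 n1).d1, (dc2 h hρ r2 n2).d1] at h1
  have h2 : Ev σ ⊔ Ev ρ = ⊤ := Submodule.eq_top_of_finrank_eq (by rw [h.dim]; omega)
  have key : ∀ {σ ρ : (End k V)ˣ}, ρ * ρ = 1 → σ * ρ = ρ * σ → Ev σ ⊓ Ev ρ = ⊥ →
      ∀ v ∈ Ev σ, (ρ * σ).1 v = -v := fun {σ ρ} r2 c h0 v hv => by
    have hv' := mem_Ev.1 hv
    have : v + ρ.1 v ∈ Ev σ ⊓ Ev ρ := ⟨mem_Ev.2 (by rw [map_add, ← um, c, um, hv']),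
      mem_Ev.2 (by rw [map_add, ← um, r2, add_comm]; rfl)⟩
    rw [h0, Submodule.mem_bot] at this
    rw [um, hv', eq_neg_iff_add_eq_zero, add_comm, this]
  refine n3 ⟨-1, LinearMap.ext fun v => ?_⟩
  obtain ⟨a, ha, b, hb, rfl⟩ := Submodule.mem_sup.1 (h2 ▸ Submodule.mem_top : v ∈ Ev σ ⊔ Ev ρ)
  rw [map_add, key s2 c.symm (inf_comm (Ev σ) _ ▸ h0) b hb, c, key r2 c h0 a ha]
  simp [add_comm]

/-- a frame of joint eigenvectors: `τ = (1,1,-1,-1)`, `υ = (1,-1,1,-1)` -/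
structure Fr (τ υ : (End k V)ˣ) (e0 e1 e2 e3 : V) : Prop where
  two : (2 : k) ≠ 0
  dim : finrank k V = 4
  i4 : I4 k e0 e1 e2 e3
  t0 : τ.1 e0 = e0
  t1 : τ.1 e1 = e1
  t2 : τ.1 e2 = -e2
  t3 : τ.1 e3 = -e3
  u0 : υ.1 e0 = e0
  u1 : υ.1 e1 = -e1
  u2 : υ.1 e2 = e2
  u3 : υ.1 e3 = -e3

/-- `x` is diagonal in the frame -/
structure Dg (x : (End k V)ˣ) (e0 e1 e2 e3 : V) (d0 d1 d2 d3 : k) : Prop where
  h0 : x.1 e0 = d0 • e0
  h1 : x.1 e1 = d1 • e1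
  h2 : x.1 e2 = d2 • e2
  h3 : x.1 e3 = d3 • e3

/-- the frame lemma -/
theorem frame (h : Beta P π) {t u : G} (f : F1 (Yc π) t u) :
    ∃ (τ υ : P) (e0 e1 e2 e3 : V), π τ = t ∧ π υ = u ∧ τ.1 * τ.1 = 1 ∧ υ.1 * υ.1 = 1 ∧
      τ.1 * υ.1 = υ.1 * τ.1 ∧ Fr τ.1 υ.1 e0 e1 e2 e3 := by
  obtain ⟨τ, rfl, s2⟩ := lift2 h f.it.1
  obtain ⟨υ, rfl, r2⟩ := lift2 h f.iu.1
  have c := (yc_iff h.toSt τ υ).1 f.y
  have n1 : ¬ Sc τ.1 := fun s => f.it.2 ((h.ker τ).2 s)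
  have n2 : ¬ Sc υ.1 := fun s => f.iu.2 ((h.ker υ).2 s)
  have n3 : ¬ Sc (τ.1 * υ.1) := fun s => f.ne (by
    have := (h.ker (τ * υ)).2 s
    rw [map_mul, ← f.iu.1] at this
    exact mul_right_cancel this)
  have ng : ∀ {x : (End k V)ˣ}, ¬ Sc x → ¬ Sc (-x) := fun n s => n (by simpa using s.neg)
  obtain ⟨e0, z0, a0, b0⟩ := joint h τ.2 υ.2 s2 r2 c n1 n2 n3
  obtain ⟨e1, z1, a1, b1⟩ := joint h τ.2 (h.neg υ.2) s2 (by simpa using r2) (by simpa using c) n1 (ng n2)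
    (by simpa using ng n3)
  obtain ⟨e2, z2, a2, b2⟩ := joint h (h.neg τ.2) υ.2 (by simpa using s2) r2 (by simpa using c) (ng n1) n2
    (by simpa using ng n3)
  obtain ⟨e3, z3, a3, b3⟩ := joint h (h.neg τ.2) (h.neg υ.2) (by simpa using s2) (by simpa using r2)
    (by simpa using c) (ng n1) (ng n2) (by simpa using n3)
  simp only [Units.val_neg, LinearMap.neg_apply, neg_eq_iff_eq_neg] at b1 a2 a3 b3
  refine ⟨τ, υ, e0, e1, e2, e3, rfl, rfl, s2, r2, c, h.two, h.dim, fun a b c d e => ?_,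
    a0, a1, a2, a3, b0, b1, b2, b3⟩
  have h1 := congrArg τ.1.1 e
  have h2 := congrArg υ.1.1 e
  have h3 := congrArg υ.1.1 h1
  simp only [map_add, map_smul, map_neg, map_zero, a0, a1, a2, a3, b0, b1, b2, b3] at h1 h2 h3
  have f4 : (4 : k) ≠ 0 := fun e => h.two (mul_self_eq_zero.1 (by linear_combination e))
  have k0 : ∀ {a : k} {v : V}, v ≠ 0 → (4 * a) • v = 0 → a = 0 := fun v0 e =>
    (mul_eq_zero.1 ((smul_eq_zero.1 e).resolve_right v0)).resolve_left f4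
  exact ⟨k0 z0 (by linear_combination (norm := module) e + h1 + h2 + h3),
    k0 z1 (by linear_combination (norm := module) e + h1 - h2 - h3),
    k0 z2 (by linear_combination (norm := module) e - h1 + h2 - h3),
    k0 z3 (by linear_combination (norm := module) e - h1 - h2 + h3)⟩

omit [IsAlgClosed k]

theorem Dg.mul {d0' d1' d2' d3' : k} (a : Dg x e0 e1 e2 e3 d0 d1 d2 d3)
    (b : Dg y e0 e1 e2 e3 d0' d1' d2' d3') :
    Dg (x * y) e0 e1 e2 e3 (d0 * d0') (d1 * d1') (d2 * d2') (d3 * d3') :=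
  ⟨by rw [um, b.h0, map_smul, a.h0, smul_smul, mul_comm], by rw [um, b.h1, map_smul, a.h1, smul_smul, mul_comm],
    by rw [um, b.h2, map_smul, a.h2, smul_smul, mul_comm], by rw [um, b.h3, map_smul, a.h3, smul_smul, mul_comm]⟩

namespace Fr
variable (f : Fr τ υ e0 e1 e2 e3)
include f

theorem negu : Fr τ (-υ) e1 e0 e3 e2 :=
  ⟨f.two, f.dim, fun a b c d e => by
    have := f.i4 b a d c (by linear_combination (norm := module) e); tauto,
    f.t1, f.t0, f.t3, f.t2, by simp [f.u1], by simp [f.u0], by simp [f.u3], by simp [f.u2]⟩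

theorem negt : Fr (-τ) υ e2 e3 e0 e1 :=
  ⟨f.two, f.dim, fun a b c d e => by
    have := f.i4 c d a b (by linear_combination (norm := module) e); tauto,
    by simp [f.t2], by simp [f.t3], by simp [f.t0], by simp [f.t1], f.u2, f.u3, f.u0, f.u1⟩

theorem swap : Fr υ τ e0 e2 e1 e3 :=
  ⟨f.two, f.dim, fun a b c d e => by
    have := f.i4 a c b d (by linear_combination (norm := module) e); tauto,
    f.u0, f.u2, f.u1, f.u3, f.t0, f.t2, f.t1, f.t3⟩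

theorem ne0 : e0 ≠ 0 := fun e => one_ne_zero (f.i4 1 0 0 0 (by simp [e])).1
theorem ne1 : e1 ≠ 0 := f.negu.ne0
theorem ne2 : e2 ≠ 0 := f.negt.ne0
theorem ne3 : e3 ≠ 0 := f.negt.negu.ne0

theorem plane (h1 : τ.1 v = v) : ∃ a b : k, v = a • e0 + b • e1 := by
  obtain ⟨a, b, c, d, rfl⟩ := f.i4.span f.dim v
  simp only [map_add, map_smul, f.t0, f.t1, f.t2, f.t3, smul_neg, ← neg_smul] at h1
  obtain ⟨-, -, h2, h3⟩ := f.i4.eq h1
  have k0 : ∀ {a : k}, -a = a → a = 0 := fun e =>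
    (mul_eq_zero.1 (by linear_combination -e : (2 : k) * _ = 0)).resolve_left f.two
  exact ⟨a, b, by rw [k0 h2, k0 h3]; simp⟩

theorem plane' (h1 : τ.1 v = -v) : ∃ a b : k, v = a • e2 + b • e3 :=
  f.negt.plane (by simp [h1])

theorem line0 (h1 : τ.1 v = v) (h2 : υ.1 v = v) : ∃ d : k, v = d • e0 := by
  obtain ⟨a, b, rfl⟩ := f.plane h1
  simp only [map_add, map_smul, f.u0, f.u1, smul_neg, add_right_inj] at h2
  have : (2 * b) • e1 = 0 := by linear_combination (norm := module) -h2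
  exact ⟨a, by simp [(mul_eq_zero.1 ((smul_eq_zero.1 this).resolve_right f.ne1)).resolve_left f.two]⟩

theorem line1 (h1 : τ.1 v = v) (h2 : υ.1 v = -v) : ∃ d : k, v = d • e1 := f.negu.line0 h1 (by simp [h2])
theorem line2 (h1 : τ.1 v = -v) (h2 : υ.1 v = v) : ∃ d : k, v = d • e2 := f.negt.line0 (by simp [h1]) h2
theorem line3 (h1 : τ.1 v = -v) (h2 : υ.1 v = -v) : ∃ d : k, v = d • e3 :=
  f.negt.negu.line0 (by simp [h1]) (by simp [h2])

theorem diag (h1 : x * τ = τ * x) (h2 : x * υ = υ * x) :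
    ∃ d0 d1 d2 d3 : k, Dg x e0 e1 e2 e3 d0 d1 d2 d3 := by
  obtain ⟨d0, a0⟩ := f.line0 (v := x.1 e0) (by rw [← um, ← h1, um, f.t0]) (by rw [← um, ← h2, um, f.u0])
  obtain ⟨d1, a1⟩ := f.line1 (v := x.1 e1) (by rw [← um, ← h1, um, f.t1])
    (by rw [← um, ← h2, um, f.u1, map_neg])
  obtain ⟨d2, a2⟩ := f.line2 (v := x.1 e2) (by rw [← um, ← h1, um, f.t2, map_neg])
    (by rw [← um, ← h2, um, f.u2])
  obtain ⟨d3, a3⟩ := f.line3 (v := x.1 e3) (by rw [← um, ← h1, um, f.t3, map_neg])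
    (by rw [← um, ← h2, um, f.u3, map_neg])
  exact ⟨d0, d1, d2, d3, a0, a1, a2, a3⟩

theorem dgt : Dg τ e0 e1 e2 e3 1 1 (-1) (-1) := ⟨by simp [f.t0], by simp [f.t1], by simp [f.t2], by simp [f.t3]⟩
theorem dgu : Dg υ e0 e1 e2 e3 1 (-1) 1 (-1) := ⟨by simp [f.u0], by simp [f.u1], by simp [f.u2], by simp [f.u3]⟩

theorem det (a : Dg x e0 e1 e2 e3 d0 d1 d2 d3) : LinearMap.det x.1 = d0 * d1 * d2 * d3 := by
  rw [f.i4.det f.dim (a0 := d0) (a1 := 0) (a2 := 0) (a3 := 0) (b0 := 0) (b1 := d1) (b2 := 0) (b3 := 0)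
    (c0 := 0) (c1 := 0) (c2 := d2) (c3 := 0) (d0 := 0) (d1 := 0) (d2 := 0) (d3 := d3)
    (by simp [a.h0]) (by simp [a.h1]) (by simp [a.h2]) (by simp [a.h3])]
  ring

/-- two diagonal elements with proportional entries -/
theorem eq_smul {d0' d1' d2' d3' c : k} (a : Dg x e0 e1 e2 e3 d0 d1 d2 d3)
    (b : Dg y e0 e1 e2 e3 d0' d1' d2' d3') (h0 : d0 = c * d0') (h1 : d1 = c * d1') (h2 : d2 = c * d2')
    (h3 : d3 = c * d3') : x.1 = c • y.1 :=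
  f.i4.ext f.dim (by simp [a.h0, b.h0, h0, smul_smul]) (by simp [a.h1, b.h1, h1, smul_smul])
    (by simp [a.h2, b.h2, h2, smul_smul]) (by simp [a.h3, b.h3, h3, smul_smul])

theorem of_smul {d0' d1' d2' d3' c : k} (a : Dg x e0 e1 e2 e3 d0 d1 d2 d3)
    (b : Dg y e0 e1 e2 e3 d0' d1' d2' d3') (e : x.1 = c • y.1) :
    d0 = c * d0' ∧ d1 = c * d1' ∧ d2 = c * d2' ∧ d3 = c * d3' :=
  ⟨smul_left_injective k f.ne0 (by simp only [← a.h0, e, LinearMap.smul_apply, b.h0, smul_smul]),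
    smul_left_injective k f.ne1 (by simp only [← a.h1, e, LinearMap.smul_apply, b.h1, smul_smul]),
    smul_left_injective k f.ne2 (by simp only [← a.h2, e, LinearMap.smul_apply, b.h2, smul_smul]),
    smul_left_injective k f.ne3 (by simp only [← a.h3, e, LinearMap.smul_apply, b.h3, smul_smul])⟩

theorem dg_comm {d0' d1' d2' d3' : k} (a : Dg x e0 e1 e2 e3 d0 d1 d2 d3)
    (b : Dg y e0 e1 e2 e3 d0' d1' d2' d3') : x * y = y * x := Units.ext (by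
  rw [f.eq_smul (a.mul b) (b.mul a) (c := 1) (by ring) (by ring) (by ring) (by ring), one_smul])

end Fr

theorem dg_one (e0 e1 e2 e3 : V) : Dg (1 : (End k V)ˣ) e0 e1 e2 e3 1 1 1 1 :=
  ⟨by simp, by simp, by simp, by simp⟩

end Cfsg.Agent.H7.FA
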