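import Cfsg.Agent.LD.F4.R1
import Cfsg.Agent.LD.ZS3

/-! Case II: every 2-central involution has a swapping involution. -/

set_option autoImplicit false
set_option linter.unusedVariables false
set_option linter.unusedSectionVars false

namespace Cfsg.Agent.H7.FP

open Subgroup Cfsg.Agent.H8.M3 Cfsg.Agent.H7.BD Cfsg.Agent.H3.ZD Cfsg.Agent.H3 Cfsg.Agent.LD.F4

universe u

variable {G : Type u} [Group G] [Finite G] {Y N : G → G → Prop}
  {a b c g h n r s t u v w x y z σ τ : G} {E H K R X : Subgroup G}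

theorem pg_el (h : ∀ x ∈ R, x * x = 1) : IsPGroup 2 R := fun x =>
  ⟨1, Subtype.ext (by simpa [pow_two] using h x x.2)⟩

theorem odd_mono (le : H ≤ K) (ho : Odd H.index) : Odd K.index :=
  ho.of_dvd_nat (index_dvd_of_le le)

theorem syl_odd (ho : Odd K.index) (hR : IsPGroup 2 R) (le : R ≤ K) :
    ∃ T : Subgroup G, R ≤ T ∧ T ≤ K ∧ IsPGroup 2 T ∧ Odd T.index := by
  obtain ⟨S, hS, l⟩ := exists_sylowIn_ge Nat.prime_two hR le
  refine ⟨S, l, hS.le, hS.pgroup, ?_⟩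
  rw [← relIndex_mul_index hS.le]
  exact (Nat.odd_iff.2 (Nat.two_dvd_ne_zero.1 hS.not_dvd)).mul ho

theorem conj_in (ho : Odd H.index) (l : H ≤ K) (hR : IsPGroup 2 R) (le : R ≤ K) :
    ∃ c ∈ K, ∀ x ∈ R, c * x * c⁻¹ ∈ H := by
  obtain ⟨T, -, l1, p, o⟩ := syl_odd (R := ⊥) ho IsPGroup.of_bot bot_le
  have hS : SylowIn 2 T K := ⟨l1.trans l, p, fun d => (Nat.not_even_iff_odd.2 o)
    (even_iff_two_dvd.2 (d.trans (relIndex_dvd_index_of_le (l1.trans l))))⟩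
  obtain ⟨c, hc, k⟩ := hS.exists_conj_le Nat.prime_two hR le
  exact ⟨c, hc, fun x hx => l1 (k x hx)⟩

/-- extremal conjugation -/
theorem extr (ho : Odd H.index) (l : H ≤ Cen t) (hR : IsPGroup 2 R) (le : R ≤ Cen x)
    (e : g * x * g⁻¹ = t) : ∃ h, h * x * h⁻¹ = t ∧ ∀ y ∈ R, h * y * h⁻¹ ∈ H := by
  obtain ⟨y, hy, k⟩ := conj_in ho l (R := LD.F4.cj g R)
    (hR.comap_of_injective _ (MulAut.conj g⁻¹).injective)
    fun z hz => e ▸ mem_Cen_conj g |>.2 (le (mem_cj.1 hz))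
  refine ⟨y * g, ?_, fun z hz => by simpa [mul_assoc] using k _ (cj_mem.2 hz)⟩
  rw [← cj_of (mem_Cen.1 hy).symm, ← e]; group

/-- the extension of `X` by a normalising element with square in `X` -/
def ext2 (X : Subgroup G) (g : G) (hn : ∀ x ∈ X, g * x * g⁻¹ ∈ X) (h2 : g * g = 1) : Subgroup G where
  carrier := {x | x ∈ X ∨ g * x ∈ X}
  one_mem' := Or.inl (one_mem _)
  mul_mem' := fun {a b} ha hb => by
    have gi : g⁻¹ = g := inv_of_sq h2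
    rcases ha with ha | ha <;> rcases hb with hb | hb
    · exact Or.inl (mul_mem ha hb)
    · exact Or.inr (by simpa [mul_assoc] using mul_mem (hn a ha) hb)
    · exact Or.inr (by simpa [mul_assoc] using mul_mem ha hb)
    · exact Or.inl (by simpa [mul_assoc, sq_cancel h2, gi] using mul_mem (hn _ ha) hb)
  inv_mem' := fun {a} ha => by
    have gi : g⁻¹ = g := inv_of_sq h2
    rcases ha with ha | ha
    · exact Or.inl (inv_mem ha)
    · exact Or.inr (by simpa [mul_assoc, h2, gi] using hn _ (inv_mem ha))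

/-- `s` is an involution of pattern `r` for the four-group `⟨r, u⟩` -/
structure Tr (Y N : G → G → Prop) (r u s : G) : Prop where
  f : F1 Y r u
  s2 : s * s = 1
  y : Y s r
  n : N s u

theorem Tr.cj (A : Ax G Y N) (h : Tr Y N r u s) (g : G) :
    Tr Y N (g * r * g⁻¹) (g * u * g⁻¹) (g * s * g⁻¹) :=
  ⟨A.fj h.f g, cj_sq h.s2 g, A.yj g h.y, A.nj g h.n⟩

theorem Tr.el (A : Ax G Y N) (h : Tr Y N r u s) : ∀ x ∈ Cen s ⊓ Cen u, x * x = 1 := fun x hx =>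
  A.a1 h.s2 h.f.iu.1 h.n (mem_Cen.1 hx.1).symm (mem_Cen.1 hx.2).symm

theorem Tr.r0 (A : Ax G Y N) (h : Tr Y N r u s) : r ∈ Cen s ⊓ Cen u :=
  ⟨mem_Cen.2 (A.yc h.y), mem_Cen.2 (A.fc h.f).symm⟩

theorem Tr.u0 (A : Ax G Y N) (h : Tr Y N r u s) : u ∈ Cen s ⊓ Cen u :=
  ⟨mem_Cen.2 (A.nc h.n), mem_Cen.2 rfl⟩

theorem Tr.s0 (A : Ax G Y N) (h : Tr Y N r u s) : s ∈ Cen s ⊓ Cen u :=
  ⟨mem_Cen.2 rfl, mem_Cen.2 (A.nc h.n).symm⟩

theorem Tr.comm (A : Ax G Y N) (h : Tr Y N r u s) (hx : x ∈ Cen s ⊓ Cen u) (hy : y ∈ Cen s ⊓ Cen u) :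
    x * y = y * x := comm_of_sq (h.el A x hx) (h.el A y hy) (h.el A _ (mul_mem hx hy))

theorem Tr.e16 (A : Ax G Y N) (h : Tr Y N r u s) (h1 : x * s = s * x) (h2 : x * u = u * x)
    (h3 : N x r) : E16 (Cen s ⊓ Cen u) := by
  refine ⟨h.el A, le_antisymm (A.le16 h.f (h.el A) (fun y hy => h.comm A hy (h.r0 A))
    fun y hy => h.comm A hy (h.u0 A)) ?_⟩
  have lt : ∀ {X T : Subgroup G} (x : G), X ≤ T → x ∈ T → x ∉ X → 2 * Nat.card X ≤ Nat.card T :=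
    fun x le a b => two_card_le (lt_of_le_not_ge le fun d => b (d a))
  have m1 : r ∈ Cen s ⊓ Cen u ⊓ A.Ky r ⊓ A.Ky u := ⟨⟨h.r0 A, A.yr r⟩, h.f.y⟩
  have e1 := lt u (zpowers_le.2 m1) ⟨⟨h.u0 A, A.ys h.f.y⟩, A.yr u⟩ fun d =>
    h.f.ne (cyc_inv_unique (mem_zpowers r) d h.f.it h.f.iu)
  have e2 := lt (X := Cen s ⊓ Cen u ⊓ A.Ky r ⊓ A.Ky u) s inf_le_left ⟨h.s0 A, h.y⟩
    fun d => A.nb d.2 h.n
  have e3 := lt (X := Cen s ⊓ Cen u ⊓ A.Ky r) x inf_le_left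
    ⟨mem_Cen.2 h1.symm, mem_Cen.2 h2.symm⟩ fun d => A.nb d.2 h3
  rw [Nat.card_zpowers, h.f.it.orderOf] at e1
  omega

theorem sqx (A : Ax G Y N) (f : F1 Y t u) (h1 : N s t) (h2 : s * u = u * s) (h3 : n * t = t * n)
    (h4 : n * u * n⁻¹ = t * u) : ∃ g, Tr Y N t u g := by
  have k : ∀ n, N n t → n * u * n⁻¹ = t * u → ∃ g, Tr Y N t u g := fun n a b =>
    ⟨n * n, f, (A.a3 f.it.1 a).1, A.nn a a, A.sq f a b⟩
  rcases A.di f.it.1 h3 with d | d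
  · exact k (n * s) (A.yn d h1) (by rw [← h4, mul_assoc n, h2]; group)
  · exact k n d h4

section
variable (A : Ax G Y N) (ne : ∀ E : Subgroup G, ¬ E16 E)
include A ne

theorem Tr.c8 (h : Tr Y N r u s) (h1 : x * s = s * x) (h2 : x * u = u * x) : Y x r :=
  (A.di h.f.it.1 (h.comm A ⟨mem_Cen.2 h1.symm, mem_Cen.2 h2.symm⟩ (h.r0 A))).resolve_right
    fun d => ne _ (h.e16 A h1 h2 d)

theorem Tr.uniq (h : Tr Y N r u s) (h1 : Y x s) (h2 : Y x u) (x1 : x ≠ 1) : r = x := by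
  rcases A.a2 h.f (A.q1 h.f.iu.1 h.n h1 h2) (h.c8 A ne (A.yc h1) (A.yc h2)) h2 with e | e | e | e
  · exact absurd e x1
  · exact e.symm
  · exact (A.nb (A.ys h1) (e ▸ h.n)).elim
  · exact (A.nb (A.ys h1) (e ▸ A.yn' h.y h.n)).elim

/-- involutions do not occur in all three patterns -/
theorem lemR (h : Tr Y N t u g) (h' : Tr Y N u t σ) (h1 : N τ t) (h2 : N τ u) : τ * τ ≠ 1 :=
  fun τ2 => by
  have c : ∀ {a b c : G}, a * a = 1 → b * b = 1 → a * b * (a * b) = c → a * b = c * (b * a) :=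
    fun ha hb e => by rw [← e]; simp only [mul_assoc, sq_cancel hb, ha, mul_one]
  rcases A.a4 (A.fm' h.f) (A.nn' (A.yn h.y h'.n) (A.ny h.n h'.y)) (A.ny h.n h'.y) with e1 | e1
  · exact A.nb (h.c8 A ne (comm_of_sq h.s2 h'.s2 e1).symm (A.yc h'.y)) h'.n
  rcases A.a4 h'.f (A.nn h.n h2) (A.yn h.y h1) with e2 | e2
  · exact A.nb (h.c8 A ne (comm_of_sq h.s2 τ2 e2).symm (A.nc h2)) h1
  rcases A.a4 h.f (A.nn h'.n h1) (A.yn h'.y h2) with e3 | e3
  · exact A.nb (h'.c8 A ne (comm_of_sq h'.s2 τ2 e3).symm (A.nc h1)) h2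
  have k : g * (σ * τ) = t * (σ * τ * g) := by
    calc g * (σ * τ) = t * u * σ * (g * τ) := by
          rw [← mul_assoc, c h.s2 h'.s2 e1]; simp only [mul_assoc]
      _ = t * (u * (σ * u)) * (τ * g) := by rw [c h.s2 τ2 e2]; simp only [mul_assoc]
      _ = _ := by rw [A.yc h'.y, sq_cancel h.f.iu.1]; simp only [mul_assoc]
  have a2 : g * (σ * τ) * (g * (σ * τ)) = 1 := by
    nth_rewrite 1 [k]
    rw [mul_assoc, mul_assoc, sq_cancel h.s2, e3, h.f.it.1]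
  have := B4.comm (A.a2 h.f a2 (A.yy h.y (A.nn h'.n h1)) (A.nn h.n (A.yn h'.y h2)))
    (A.yc h.y) (A.nc h.n)
  rw [mul_assoc g, mul_left_cancel_iff, k, mul_eq_right] at this
  exact h.f.it.2 this

/-- the radical is 2-central together with `z` -/
theorem cenB (h : Tr Y N y z σ) (ho : Odd (Cen z).index) : Odd (Cen y ⊓ Cen z).index := by
  obtain ⟨T, l1, l2, p, o⟩ := syl_odd ho (pg_el (h.el A)) inf_le_right
  by_cases c : T ≤ Cen y
  · exact odd_mono (le_inf c l2) o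
  obtain ⟨n, n0, n1, n2, -⟩ := lt_norm_sq (X := T ⊓ Cen y) p
    (lt_of_le_not_ge inf_le_left fun d => c (d.trans inf_le_right))
  have nz : n * z = z * n := (mem_Cen.1 (l2 n0)).symm
  have k : n * y * n⁻¹ * σ = σ * (n * y * n⁻¹) := by
    have := cj_comm (mem_Cen.1 (LD.F4.nm (inv_mem n1) ⟨l1 (h.s0 A), mem_Cen.2 (A.yc h.y).symm⟩).2) n
    simpa [mul_assoc] using this
  have yz := A.yj' h.f.y nz
  have e : n * y * n⁻¹ = z * y := by
    rcases A.a2 h.f (cj_sq h.f.it.1 n) (h.c8 A ne k (A.yc yz)) yz with e | e | e | e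
    · exact absurd e (conj_ne_one h.f.it.2)
    · exact absurd ⟨n0, mem_Cen.2 (of_cj e).symm⟩ n2
    · rw [← cj_of nz] at e
      exact absurd (by simpa using e) h.f.ne
    · rw [e, A.fc h.f]
  obtain ⟨g, hg⟩ := sqx A (A.fs h.f) h.n (A.yc h.y) nz e
  have b := A.nj' h.n nz
  have a := A.ny' b (e ▸ A.yj n h.y)
  rw [sq_cancel h.f.iu.1] at a
  exact (lemR A ne h hg a b (cj_sq h.s2 n)).elim

end

/-- the remaining configuration: `⟨y, z⟩` is centralised by a Sylow subgroup -/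
structure Cb (Y N : G → G → Prop) (y z σ τ : G) : Prop where
  A : Ax G Y N
  ne : ∀ E : Subgroup G, ¬ E16 E
  h : Tr Y N y z σ
  h' : Tr Y N z y τ
  odd : Odd (Cen y ⊓ Cen z).index

namespace Cb

variable (C : Cb Y N y z σ τ)
include C

theorem symm : Cb Y N z y τ σ := ⟨C.A, C.ne, C.h', C.h, inf_comm (Cen y) (Cen z) ▸ C.odd⟩

theorem np (h1 : N x y) (h2 : N x z) : x * x ≠ 1 := lemR C.A C.ne C.h C.h' h1 h2

theorem dy (h : x ∈ Cen y ⊓ Cen z) : Y x y ∨ N x y := C.A.di C.h.f.it.1 (mem_Cen.1 h.1).symm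

theorem dz (h : x ∈ Cen y ⊓ Cen z) : Y x z ∨ N x z := C.A.di C.h.f.iu.1 (mem_Cen.1 h.2).symm

theorem rad (h : Tr Y N r u s) (hu : u ∈ Cen y ⊓ Cen z) (hs : s ∈ Cen y ⊓ Cen z) :
    r = y ∨ r = z := by
  have A := C.A
  have k : u * s * (u * s) = 1 := h.el A _ (mul_mem (h.u0 A) (h.s0 A))
  have k1 : Y u y → Y s y → r = y ∨ r = z := fun a b =>
    Or.inl (h.uniq A C.ne (A.ys b) (A.ys a) C.h.f.it.2)
  have k2 : Y u z → Y s z → r = y ∨ r = z := fun a b =>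
    Or.inr (h.uniq A C.ne (A.ys b) (A.ys a) C.h.f.iu.2)
  rcases C.dy hu with a | a <;> rcases C.dy hs with b | b <;> rcases C.dz hu with c | c <;>
    rcases C.dz hs with d | d
  all_goals first
    | exact k1 a b
    | exact k2 c d
    | exact (C.np a c h.f.iu.1).elim
    | exact (C.np b d h.s2).elim
    | exact (C.np (A.yn a b) (A.ny c d) k).elim
    | exact (C.np (A.ny a b) (A.yn c d) k).elim

/-- extremal conjugation onto `y` of an element `x` of the four-group or of pattern `r` -/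
theorem ex (h : Tr Y N r u s) (hx : x ∈ Cen s ⊓ Cen u) (e : g * x * g⁻¹ = y) :
    ∃ k, k * x * k⁻¹ = y ∧ (k * r * k⁻¹ = y ∨ k * r * k⁻¹ = z) := by
  obtain ⟨k, k1, k2⟩ := extr C.odd inf_le_left (pg_el (h.el C.A))
    (fun a ha => mem_Cen.2 (h.comm C.A hx ha)) e
  exact ⟨k, k1, C.rad (h.cj C.A k) (k2 _ (h.u0 C.A)) (k2 _ (h.s0 C.A))⟩

theorem nc1 : g * z * g⁻¹ ≠ y := fun e => by
  have A := C.A
  obtain ⟨k, k1, k2 | k2⟩ := C.ex C.h (C.h.u0 A) e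
  · exact C.h.f.ne (by simpa using k2.trans k1.symm)
  obtain ⟨w, hw⟩ := sqx A (A.fm' C.h.f) (A.yn' C.h.y C.h.n) (A.nc C.h.n) (n := k)
    (of_cj (by rw [← conj_mul, k1, k2, A.fc C.h.f])) (by rw [k1, mul_assoc, C.h.f.iu.1, mul_one])
  have := A.yn' hw.y hw.n
  rw [mul_assoc, C.h.f.iu.1, mul_one] at this
  exact C.np this hw.n hw.s2

theorem nc2 : g * (y * z) * g⁻¹ ≠ y := fun e => by
  obtain ⟨k, k1, k2 | k2⟩ := C.ex C.h (mul_mem (C.h.r0 C.A) (C.h.u0 C.A)) e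
  · exact C.h.f.iu.2 (by simpa using k1.trans k2.symm)
  · exact C.symm.nc1 k2

theorem fy (hx : x ∈ Cen y ⊓ Cen z) (e : g * x * g⁻¹ = y) :
    x = y ∨ (Tr Y N z y x ∧ IsConj (x * z) (y * z)) := by
  have A := C.A
  have x2 : x * x = 1 := by simpa [← e, mul_assoc] using cj_sq C.h.f.it.1 g⁻¹
  rcases C.dy hx with a | a <;> rcases C.dz hx with b | b
  · rcases A.a2 C.h.f x2 a b with d | d | d | d
    · exact (C.h.f.it.2 (by simpa [d] using e.symm)).elim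
    · exact Or.inl d
    · exact (C.nc1 (d ▸ e)).elim
    · exact (C.nc2 (d ▸ e)).elim
  · have h : Tr Y N y z x := ⟨C.h.f, x2, a, b⟩
    obtain ⟨k, k1, k2 | k2⟩ := C.ex h (h.s0 A) e
    · exact Or.inl (by simpa using k1.trans k2.symm)
    · exact (C.symm.nc1 k2).elim
  · have h : Tr Y N z y x := ⟨C.h'.f, x2, b, a⟩
    obtain ⟨k, k1, k2 | k2⟩ := C.ex h (h.s0 A) e
    · exact (C.nc1 k2).elim
    · exact Or.inr ⟨h, isConj_iff.2 ⟨k, by rw [← conj_mul, k1, k2]⟩⟩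
  · exact (C.np a b x2).elim

theorem sq3 (h1 : N x y) (h2 : N x z) : x * x = y * z :=
  (C.A.a4 (C.A.fm' C.h.f) (C.A.nn' h1 h2) h2).resolve_left (C.np h1 h2)

theorem st : σ * τ * (σ * τ) = y * z := C.sq3 (C.A.yn C.h.y C.h'.n) (C.A.ny C.h.n C.h'.y)

theorem cz : IsConj (τ * y) (τ * z) := isConj_iff.2 ⟨σ, by
  have A := C.A
  have e : σ * τ * σ = y * z * τ := by rw [← C.st]; simp only [mul_assoc, C.h'.s2, mul_one]
  rw [inv_of_sq C.h.s2, mul_assoc, mul_assoc τ, ← A.yc C.h.y, ← mul_assoc, ← mul_assoc, e,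
    mul_assoc y, mul_assoc y, ← A.yc C.h'.y, ← (B4.comm (x := τ * z) (t := τ) (u := z) (by simp [B4])
      (A.nc C.h'.n).symm (A.fc C.h.f)), sq_cancel C.h.f.it.1]⟩

theorem ab (e1 : IsConj τ y) (e2 : IsConj (τ * z) (y * z)) (h1 : Y a y) (h2 : Y a z) :
    B4 y z a := by
  have A := C.A
  have k := C.sq3 (A.ny (A.yn C.h.y C.h'.n) h1) (A.ny (A.ny C.h.n C.h'.y) h2)
  have k' : σ * a * (σ * a) * (a⁻¹ * τ * a) = τ := by
    rw [← C.st] at k
    simp only [mul_assoc, mul_left_cancel_iff] at k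
    simp only [mul_assoc, mul_inv_cancel_left, k, sq_cancel C.h.s2]
  rcases A.a4 C.h.f (A.yy C.h.y h1) (A.ny C.h.n h2) with d | d <;> rw [d] at k'
  · exact A.a2 C.h.f (A.a1 C.h'.s2 C.h.f.it.1 C.h'.n (by
      rw [one_mul, mul_assoc, inv_mul_eq_iff_eq_mul] at k'; exact k'.symm) (A.yc h1)) h1 h2
  · have : IsConj τ (τ * y) := isConj_iff.2 ⟨a⁻¹, by
      rw [A.nc C.h'.n, inv_inv]; nth_rewrite 2 [← k']; rw [sq_cancel C.h.f.it.1]⟩
    obtain ⟨g, hg⟩ := isConj_iff.1 ((e1.symm.trans (this.trans (C.cz.trans e2))).symm)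
    exact (C.nc2 hg).elim

theorem fin (e1 : IsConj τ y) (e2 : IsConj (τ * z) (y * z)) : False := by
  have A := C.A
  have f := C.h.f
  have m1 : ∀ x ∈ zpowers (y * z), x = 1 ∨ x = y * z := fun x hx => by
    by_cases d : x = 1
    · exact Or.inl d
    refine Or.inr (cyc_inv_unique hx (mem_zpowers _) ⟨?_, d⟩ (A.fm f).iu)
    obtain ⟨i, rfl⟩ := hx
    exact ((Commute.refl _).mul_zpow i).symm.trans (by rw [A.f2 f, one_zpow])
  have my : ∀ x ∈ zpowers (y * z), Y x y := fun x hx =>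
    (zpowers_le (H := A.Ky y)).2 (A.yy (A.yr y) (A.ys f.y)) hx
  have mz : ∀ x ∈ zpowers (y * z), Y x z := fun x hx =>
    (zpowers_le (H := A.Ky z)).2 (A.yy f.y (A.yr z)) hx
  have mc : ∀ g, g * y = y * g → g * z = z * g → ∀ x ∈ zpowers (y * z), g * x * g⁻¹ = x :=
    fun g a b x hx => cj_of (B4.comm (by rcases m1 x hx with d | d <;> simp [B4, d]) a b)
  have ry : N (τ * y) y := A.ny C.h'.n (A.yr y)
  have rz : Y (τ * y) z := A.yy C.h'.y f.y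
  have r2 : τ * y * (τ * y) = 1 := by rw [sq_mul (A.nc C.h'.n), C.h'.s2, f.it.1, one_mul]
  let D2 := ext2 (zpowers (y * z)) σ
    (fun x hx => by rwa [mc σ (A.yc C.h.y) (A.nc C.h.n) x hx]) C.h.s2
  let D := ext2 D2 (τ * y) (fun x hx => by
    rcases hx with hx | hx
    · exact Or.inl (by rwa [mc _ (A.nc ry) (A.yc rz) x hx])
    · refine Or.inr ?_
      have a : σ * (τ * y) * (σ * (τ * y)) ∈ zpowers (y * z) := by
        rw [C.sq3 (A.yn C.h.y ry) (A.ny C.h.n rz)]; exact mem_zpowers _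
      have b : τ * y * (σ * x) * (τ * y)⁻¹ ∈ zpowers (y * z) := by
        rwa [mc _ (A.nc ry) (A.yc rz) _ hx]
      generalize τ * y = ρ at a b r2 ⊢
      simpa [mul_assoc, sq_cancel r2, sq_cancel C.h.s2] using mul_mem a b) r2
  have s0 : σ ∈ D := Or.inl (Or.inr (C.h.s2 ▸ one_mem _))
  have r0 : τ * y ∈ D := Or.inr (r2 ▸ one_mem _)
  have w0 : y * z ∈ D := Or.inl (Or.inl (mem_zpowers _))
  have cv : ∀ x ∈ Cen y ⊓ Cen z, x ∈ D ∨ y * x ∈ D := fun x hx => by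
    have k : ∀ d ∈ D, d * y = y * d → Y (d * x) y → Y (d * x) z → x ∈ D ∨ y * x ∈ D :=
      fun d hd c a b => by
        have : d * x ∈ D ∨ y * (d * x) ∈ D := by
          rcases C.ab e1 e2 a b with e | e | e | e <;> rw [e]
          exacts [Or.inl (one_mem _), Or.inr (f.it.1 ▸ one_mem _), Or.inr w0, Or.inl w0]
        rwa [← mul_assoc, ← c, mul_assoc, mul_mem_cancel_left hd, mul_mem_cancel_left hd] at this
    rcases C.dy hx with a | a <;> rcases C.dz hx with b | b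
    · exact k 1 (one_mem _) (by simp) (A.yy (A.y1 y) a) (A.yy (A.y1 z) b)
    · exact k σ s0 (A.yc C.h.y) (A.yy C.h.y a) (A.nn C.h.n b)
    · exact k _ r0 (A.nc ry) (A.nn ry a) (A.yy rz b)
    · exact k _ (mul_mem s0 r0) (A.nc (A.yn C.h.y ry)) (A.nn (A.yn C.h.y ry) a)
        (A.nn (A.ny C.h.n rz) b)
  obtain ⟨g, g1, g2⟩ := thompson A.sn (S0 := D) C.odd (fun a ha b hb a0 b0 => by
    have := mul_mem ((cv a ha).resolve_left a0) ((cv b hb).resolve_left b0)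
    rwa [mem_Cen.1 ha.1, mul_assoc, sq_cancel f.it.1] at this) f.it.1
  have e : g * (g⁻¹ * y * g) * g⁻¹ = y := by group
  generalize g⁻¹ * y * g = v at *
  rcases C.fy g1 e with rfl | ⟨h, -⟩
  · rcases g2 with (d | d) | d | d
    · rcases m1 _ d with d | d
      exacts [f.it.2 d, f.iu.2 (left_eq_mul.1 d)]
    · exact A.nb (mz _ d) (A.ny C.h.n f.y)
    · exact A.nb (my _ d) (A.ny ry (A.yr v))
    · exact A.nb (my _ d) (A.yn C.h.y (A.ny ry (A.yr v)))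
  · rcases g2 with (d | d) | d | d
    · exact A.nb (my _ d) h.n
    · exact A.nb (my _ d) (A.yn C.h.y h.n)
    · have : IsConj v (τ * z) := by
        rw [← sq_cancel r2 v]
        rcases m1 _ d with d | d <;> rw [d]
        · rw [mul_one]; exact C.cz
        · rw [mul_assoc, sq_cancel f.it.1]
      obtain ⟨k, hk⟩ := isConj_iff.1 ((this.trans e2).symm.trans (isConj_iff.2 ⟨g, e⟩))
      exact C.nc2 hk
    · exact A.nb (mz _ d) (A.ny C.h.n (A.yy rz h.y))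

theorem false : False := by
  have A := C.A
  have := A.sn.simple
  obtain ⟨g, g1, g2⟩ := LD.ZS.zstar_simple (by simpa using A.sn.nc) C.h.f.it.orderOf
  obtain ⟨c, hc, k⟩ := conj_in C.odd inf_le_left (R := zpowers (g * y * g⁻¹))
    (IsPGroup.of_card (n := 1) (by rw [Nat.card_zpowers, (C.h.f.it.conj g).orderOf]; rfl))
    (zpowers_le.2 (mem_Cen.2 g1.eq))
  rcases C.fy (k _ (mem_zpowers _)) (g := (c * g)⁻¹) (by group) with e | ⟨h, e⟩
  · exact g2 (by simpa using e.trans (cj_of (mem_Cen.1 hc).symm).symm)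
  · exact Cb.fin ⟨A, C.ne, C.h, h, C.odd⟩ (isConj_iff.2 ⟨(c * g)⁻¹, by group⟩) e

end Cb

theorem exTr (A : Ax G Y N) (hz : IsInv z) (s2 : σ * σ = 1) (h : N σ z) (hv : IsInv v) (vz : v ≠ z)
    (h1 : Y v z) : ∃ y, Tr Y N y z σ := by
  have k : ∀ v, IsInv v → v ≠ z → Y v z → v * σ = σ * v → ∃ y, Tr Y N y z σ := fun v a b c d => by
    rcases A.di s2 d with e | e
    · exact ⟨v, ⟨a, hz, b, c⟩, s2, A.ys e, h⟩
    · exact ⟨v * z, A.fm' ⟨a, hz, b, c⟩, s2, A.nn' (A.ns e) h, h⟩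
  obtain ⟨a, b⟩ := A.a3 hz.1 (A.yn h1 h)
  by_cases e : v * σ * (v * σ) = 1
  · exact k v hv vz h1 (comm_of_sq hv.1 s2 e)
  refine k _ ⟨a, e⟩ b (A.nn (A.yn h1 h) (A.yn h1 h)) ?_
  nth_rewrite 1 [← inv_of_sq a]
  simp only [mul_inv_rev, inv_of_sq s2, hv.inv_eq, mul_assoc]

theorem dd (A : Ax G Y N) (hz : IsInv z) (ho : (Cen z).index % 2 = 1) (h : N σ z)
    (hv : ∀ v, v * v = 1 → Y v z → v = 1 ∨ v = z) : ∃ m k, H6.S4.DD z m k := by
  have k : ∀ x, N x z → x * x = 1 := fun x hx =>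
    (hv _ (A.a3 hz.1 hx).1 (A.nn hx hx)).resolve_right (A.a3 hz.1 hx).2
  obtain ⟨⟨m, hm⟩, e⟩ := (A.cy (A.Ky z) hz h (fun x hx => ⟨hx, by
    rw [inv_of_sq (k σ h)]
    exact eq_inv_of_mul_eq_one_left (by rw [mul_assoc]; exact k _ (A.ny h hx))⟩)
    fun x hx x2 => hv x x2 hx).exists_generator
  have e' : zpowers m = A.Ky z := le_antisymm (zpowers_le.2 hm) fun x hx =>
    let ⟨i, hi⟩ := e ⟨x, hx⟩
    ⟨i, congrArg Subtype.val hi⟩
  have tm : z ∈ zpowers m := e' ▸ A.yr z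
  have le : A.Ky z ≤ Cen z := fun x hx => mem_Cen.2 (A.yc hx).symm
  obtain ⟨j, hj⟩ : 2 ∣ orderOf m := hz.orderOf ▸ orderOf_dvd_of_mem_zpowers tm
  have c1 := A.half (X := Cen z) hz.1 fun x hx => (mem_Cen.1 hx).symm
  have c2 := two_card_le (lt_of_le_not_ge le fun d => A.nb (d (mem_Cen.2 (A.nc h).symm)) h)
  rw [inf_eq_right.2 le] at c1
  rw [← e', Nat.card_zpowers, hj] at c1 c2
  exact ⟨m, j, hz, ho, hj, by have := orderOf_pos m; omega, le hm, tm, by omega, fun y hy y0 =>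
    k y ((A.di hz.1 (mem_Cen.1 hy).symm).resolve_left fun d => y0 (e' ▸ d))⟩

/-- case II -/
theorem caseII (A : Ax G Y N) (h : ∀ t, ¬ CaseI N t) (ht : IsInv t) :
    (∃ (t m : G) (k : ℕ), H6.S4.DD t m k) ∨ ∃ E : Subgroup G, E16 E := by
  have sw : ∀ t, IsInv t → Odd (Cen t).index → ∃ s, N s t ∧ s * s = 1 := fun t a b => by
    by_contra! d
    exact h t ⟨a, b, d⟩
  obtain ⟨z, hz, ho⟩ := exists_central_inv ht
  obtain ⟨σ, s1, s2⟩ := sw z hz (Nat.odd_iff.2 ho)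
  by_cases hv : ∀ v, v * v = 1 → Y v z → v = 1 ∨ v = z
  · exact Or.inl ⟨z, dd A hz ho s1 hv⟩
  refine Or.inr (by_contra fun ne => ?_)
  push Not at hv ne
  obtain ⟨v, v2, v3, v1, vz⟩ := hv
  obtain ⟨y, hy⟩ := exTr A hz s2 s1 ⟨v2, v1⟩ vz v3
  have o := cenB A ne hy (Nat.odd_iff.2 ho)
  obtain ⟨τ, t1, t2⟩ := sw y hy.f.it (odd_mono inf_le_left o)
  obtain ⟨c, hc, k⟩ := conj_in o inf_le_left (R := Cen τ ⊓ Cen y)
    (pg_el fun x hx => A.a1 t2 hy.f.it.1 t1 (mem_Cen.1 hx.1).symm (mem_Cen.1 hx.2).symm) inf_le_right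
  have a := A.nj' t1 (mem_Cen.1 hc).symm
  rcases A.di hz.1 (mem_Cen.1 (k τ ⟨mem_Cen.2 rfl, mem_Cen.2 (A.nc t1).symm⟩).2).symm with b | b
  · exact Cb.false ⟨A, ne, hy, ⟨A.fs hy.f, cj_sq t2 c, b, a⟩, o⟩
  · exact Cb.false ⟨A, ne, ⟨A.fm hy.f, s2, hy.y, A.yn' hy.y s1⟩,
      ⟨A.fs (A.fm hy.f), cj_sq t2 c, A.nn' a b, a⟩, odd_mono (H := Cen y ⊓ Cen z) (fun x hx => ⟨hx.1,
        mem_Cen_comm.1 (mul_mem (mem_Cen_comm.1 hx.1) (mem_Cen_comm.1 hx.2))⟩) o⟩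

end Cfsg.Agent.H7.FP
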